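import Mathlib
import Cfsg.Agent.H1.Basic
import Cfsg.Agent.H1.Frattini
import Cfsg.Agent.H1.SchurZ

/-! Carter subgroups (helper2). -/

set_option autoImplicit false

namespace Cfsg.Agent.H2
open Subgroup
open scoped Pointwise

variable {G : Type*} [Group G]

theorem isNilpotent_of_le' {H K : Subgroup G} (h : H ≤ K) (hK : Group.IsNilpotent K) :
    Group.IsNilpotent H :=
  nilpotent_of_surjective (subgroupOfEquivOfLe h).toMonoidHom (subgroupOfEquivOfLe h).surjective

theorem isNilpotent_map' {G' : Type*} [Group G'] {H : Subgroup G} (hH : Group.IsNilpotent H)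
    (f : G →* G') : Group.IsNilpotent (H.map f) :=
  nilpotent_of_surjective (f.subgroupMap H) (f.subgroupMap_surjective H)

theorem isNilpotent_subgroupOf_of_le {H K : Subgroup G} (h : H ≤ K) (hH : Group.IsNilpotent H) :
    Group.IsNilpotent (H.subgroupOf K) :=
  nilpotent_of_surjective (subgroupOfEquivOfLe h).symm.toMonoidHom
    (subgroupOfEquivOfLe h).symm.surjective

/-- Join of two nilpotent subgroups normalised by a common overgroup. -/
theorem isNilpotent_sup_of_le_normalizer [Finite G] {M N L : Subgroup G} (hM : M ≤ L) (hN : N ≤ L)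
    (hLM : L ≤ normalizer (M : Set G)) (hLN : L ≤ normalizer (N : Set G))
    (h1 : Group.IsNilpotent M) (h2 : Group.IsNilpotent N) :
    Group.IsNilpotent (M ⊔ N : Subgroup G) := by
  have := (normal_subgroupOf_iff_le_normalizer hM).mpr hLM
  have := (normal_subgroupOf_iff_le_normalizer hN).mpr hLN
  have h3 := isNilpotent_map' (H1.isNilpotent_sup (isNilpotent_subgroupOf_of_le hM h1)
    (isNilpotent_subgroupOf_of_le hN h2)) L.subtype
  rwa [Subgroup.map_sup, map_subgroupOf_eq_of_le hM, map_subgroupOf_eq_of_le hN] at h3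

/-- A minimal supplement to a normal subgroup meets it inside its Frattini subgroup. -/
theorem exists_supplement_frattini [Finite G] (N K : Subgroup G) [N.Normal] (hNK : N ≤ K) :
    ∃ L : Subgroup G, L ⊔ N = K ∧ N.subgroupOf L ≤ frattini L := by
  obtain ⟨L, hL, hmin⟩ := (wellFounded_lt (α := Subgroup G)).has_min {L | L ⊔ N = K}
    ⟨K, sup_eq_left.mpr hNK⟩
  refine ⟨L, hL, H1.le_frattini_iff.mpr fun M hM => ?_⟩
  by_contra hc
  have h1 : M ⊔ N.subgroupOf L = ⊤ := hM.2 _ (left_lt_sup.mpr hc)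
  have h2 := congrArg (Subgroup.map L.subtype) h1
  rw [Subgroup.map_sup, subgroupOf_map_subtype, ← MonoidHom.range_eq_map, range_subtype] at h2
  refine hmin (M.map L.subtype) ?_ ?_
  · have h3 : L ⊔ N = K := hL
    show _ ⊔ N = K
    rw [← h3]
    conv_rhs => rw [← h2]
    rw [sup_assoc, sup_eq_right.mpr (inf_le_left : N ⊓ L ≤ N)]
  · refine lt_of_le_of_ne (map_subtype_le M) fun h => hM.1 ?_
    rw [← comap_map_eq_self_of_injective L.subtype_injective M, h]
    exact subgroupOf_self L

theorem exists_nilpotent_supplement [Finite G] (N K : Subgroup G) [N.Normal] (hNK : N ≤ K)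
    (hK : Group.IsNilpotent (K.map (QuotientGroup.mk' N))) :
    ∃ L : Subgroup G, L ⊔ N = K ∧ Group.IsNilpotent L := by
  obtain ⟨L, hL, hF⟩ := exists_supplement_frattini N K hNK
  refine ⟨L, hL, H1.isNilpotent_of_ker_le_frattini ((QuotientGroup.mk' N).subgroupMap_surjective L)
    ?_ (isNilpotent_of_le' (map_mono (hL ▸ le_sup_left)) hK)⟩
  rwa [ker_subgroupMap, QuotientGroup.ker_mk']

theorem exists_carter [Finite G] (hs : Group.IsSolvable G) :
    ∃ C : Subgroup G, Group.IsNilpotent C ∧ normalizer (C : Set G) = C := by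
  induction hn : Nat.card G using Nat.strong_induction_on generalizing G with
  | _ n ih =>
  rcases subsingleton_or_nontrivial G with hG | hG
  · exact ⟨⊥, inferInstance, Subsingleton.elim _ _⟩
  obtain ⟨p, N, hp, hN, hN1, -, hNp⟩ := H1.exists_normal_pGroup hs
  have := Fact.mk hp
  obtain ⟨K', hK', hK'n⟩ := ih _ (hn ▸ H1.card_quotient_lt hN1) (G := G ⧸ N) inferInstance rfl
  set K := K'.comap (QuotientGroup.mk' N) with hK
  have hKn : normalizer (K : Set G) = K := by
    rw [hK, ← comap_normalizer_eq_of_surjective _ (QuotientGroup.mk'_surjective N), hK'n]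
  have hNK : N ≤ K := by
    intro x hx
    rw [hK, mem_comap, QuotientGroup.mk'_apply, (QuotientGroup.eq_one_iff x).mpr hx]
    exact K'.one_mem
  obtain ⟨C, ⟨hC1, hC2⟩, hmax⟩ := (wellFounded_gt (α := Subgroup G)).has_min
    {L | L ⊔ N = K ∧ Group.IsNilpotent L}
    (exists_nilpotent_supplement N K hNK
      (by rwa [hK, map_comap_eq_self_of_surjective (QuotientGroup.mk'_surjective N)]))
  refine ⟨C, hC2, le_antisymm ?_ le_normalizer⟩
  have hNn : ∀ L : Subgroup G, L ≤ normalizer (N : Set G) := fun L => by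
    rw [normalizer_eq_top]; exact le_top
  have h1 : normalizer (C : Set G) ≤ K := by
    rw [← hKn, ← hC1]
    intro g hg
    rw [← H1.conj_smul_eq_iff_mem_normalizer] at hg ⊢
    rw [smul_sup, hg, H1.conj_smul_eq_iff_mem_normalizer.mpr (hNn ⊤ trivial)]
  set M := N ⊓ normalizer (C : Set G) with hM
  have h2 : Group.IsNilpotent (C ⊔ M : Subgroup G) := by
    refine isNilpotent_sup_of_le_normalizer (L := normalizer (C : Set G)) le_normalizer
      inf_le_right le_rfl ?_ hC2 (isNilpotent_of_le' inf_le_left hNp.isNilpotent)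
    intro g hg
    apply H1.mem_normalizer_of_conj_mem
    intro x hx
    exact ⟨hN.conj_mem x hx.1 g, Subgroup.mul_mem _ (Subgroup.mul_mem _ hg hx.2)
      (Subgroup.inv_mem _ hg)⟩
  have h3 : M ≤ C := by
    by_contra hc
    refine hmax (C ⊔ M) ⟨?_, h2⟩ (left_lt_sup.mpr hc)
    rw [sup_assoc, sup_eq_right.mpr (inf_le_left : M ≤ N), hC1]
  intro g hg
  have h4 := h1 hg
  rw [← hC1] at h4
  obtain ⟨c, hc, x, hx, rfl⟩ := (H1.mem_sup_of_le_normalizer (hNn C)).mp h4
  refine C.mul_mem hc (h3 ⟨hx, ?_⟩)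
  have := Subgroup.mul_mem _ (Subgroup.inv_mem _ (le_normalizer hc)) hg
  simpa using this

/-- If `C ⊔ N = ⊤` with `N` a normal `p`-subgroup and `C` nilpotent, `C` normalises a Sylow
`q`-subgroup of `G` for `q ≠ p`. -/
theorem exists_sylow_normalized [Finite G] {p q : ℕ} [hp : Fact p.Prime] [hq : Fact q.Prime]
    (hpq : q ≠ p) {N C : Subgroup G} [N.Normal] (hN : IsPGroup p N) (hCN : C ⊔ N = ⊤)
    (hC : Group.IsNilpotent C) : ∃ Q : Sylow q G, C ≤ normalizer (Q : Set G) := by
  let Q₀ : Sylow q C := default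
  have hn : (Q₀ : Subgroup C).Normal := inferInstance
  have hi : ¬ q ∣ ((Q₀ : Subgroup C).map C.subtype).index := by
    rw [index_map_subtype]
    intro h
    rcases (Nat.Prime.dvd_mul hq.out).mp h with h | h
    · exact Q₀.not_dvd_index h
    · have h1 : C.index ∣ Nat.card N := by
        have h2 := H1.card_sup_dvd (H := C) (N := N) (by rw [normalizer_eq_top]; exact le_top)
        rw [hCN, card_top, ← C.card_mul_index] at h2
        exact Nat.dvd_of_mul_dvd_mul_left Nat.card_pos h2
      obtain ⟨k, hk⟩ := hN.exists_card_eq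
      exact hpq ((Nat.prime_dvd_prime_iff_eq hq.out hp.out).mp
        (hq.out.dvd_of_dvd_pow (hk ▸ h.trans h1)))
  refine ⟨(Q₀.2.map C.subtype).toSylow hi, ?_⟩
  have h3 := le_normalizer_map (H := (Q₀ : Subgroup C)) C.subtype
  rw [normalizer_eq_top, ← MonoidHom.range_eq_map, range_subtype] at h3
  exact h3

theorem carter_conj [Finite G] (hs : Group.IsSolvable G) (C D : Subgroup G)
    (hC : Group.IsNilpotent C) (hCn : normalizer (C : Set G) = C)
    (hD : Group.IsNilpotent D) (hDn : normalizer (D : Set G) = D) :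
    ∃ g : G, MulAut.conj g • C = D := by
  induction hn : Nat.card G using Nat.strong_induction_on generalizing G with
  | _ n ih =>
  have sub : ∀ U : Subgroup G, U ≠ ⊤ → ∀ C D : Subgroup G, Group.IsNilpotent C →
      normalizer (C : Set G) = C → Group.IsNilpotent D → normalizer (D : Set G) = D → C ≤ U →
      D ≤ U → ∃ u ∈ U, MulAut.conj u • C = D := by
    intro U hU C D hC hCn hD hDn hCU hDU
    obtain ⟨u, hu⟩ := ih _ (hn ▸ H1.card_lt_of_ne_top hU) (G := U) inferInstance
      (C.subgroupOf U) (D.subgroupOf U) (isNilpotent_subgroupOf_of_le hCU hC)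
      (by rw [← subgroupOf_normalizer_eq hCU, hCn]) (isNilpotent_subgroupOf_of_le hDU hD)
      (by rw [← subgroupOf_normalizer_eq hDU, hDn]) rfl
    exact ⟨u, u.2, H1.conj_smul_eq_of_subgroupOf hCU hDU u hu⟩
  have conjC : ∀ (g : G) (C : Subgroup G), normalizer (C : Set G) = C →
      normalizer ((MulAut.conj g • C : Subgroup G) : Set G) = MulAut.conj g • C := by
    intro g C h
    rw [H1.conj_smul_eq_map, ← map_normalizer_eq_of_bijective _ (MulAut.conj g).bijective, h]
  rcases subsingleton_or_nontrivial G with hG | hG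
  · exact ⟨1, Subsingleton.elim _ _⟩
  obtain ⟨p, N, hp, hN, hN1, -, hNp⟩ := H1.exists_normal_pGroup hs
  have := Fact.mk hp
  have hNn : ∀ g : G, MulAut.conj g • N = N := fun g =>
    H1.conj_smul_eq_iff_mem_normalizer.mpr (by rw [normalizer_eq_top]; trivial)
  have quot : ∀ C : Subgroup G, Group.IsNilpotent C → normalizer (C : Set G) = C →
      normalizer ((C.map (QuotientGroup.mk' N) : Subgroup (G ⧸ N)) : Set (G ⧸ N)) =
        C.map (QuotientGroup.mk' N) := by
    intro C hC hCn
    apply comap_injective (QuotientGroup.mk'_surjective N)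
    rw [comap_normalizer_eq_of_surjective _ (QuotientGroup.mk'_surjective N), comap_map_eq,
      QuotientGroup.ker_mk']
    refine le_antisymm ?_ le_normalizer
    by_cases hU : C ⊔ N = ⊤
    · rw [hU]; exact le_top
    intro g hg
    obtain ⟨u, hu, hu1⟩ := sub _ hU (MulAut.conj g • C) C (isNilpotent_map' hC _) (conjC g C hCn)
      hC hCn (by
        rw [← H1.conj_smul_eq_iff_mem_normalizer.mpr hg, smul_sup]
        exact le_sup_left) le_sup_left
    rw [← H1.conj_mul_smul, H1.conj_smul_eq_iff_mem_normalizer, hCn] at hu1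
    have := Subgroup.mul_mem _ (Subgroup.inv_mem _ hu) (mem_sup_left (T := N) hu1)
    simpa using this
  obtain ⟨g, hg⟩ := ih _ (hn ▸ H1.card_quotient_lt hN1) (G := G ⧸ N) inferInstance
    (C.map (QuotientGroup.mk' N)) (D.map (QuotientGroup.mk' N)) (isNilpotent_map' hC _)
    (quot C hC hCn) (isNilpotent_map' hD _) (quot D hD hDn) rfl
  obtain ⟨g, rfl⟩ := QuotientGroup.mk'_surjective N g
  rw [← H1.map_conj_smul] at hg
  have hg' := congrArg (comap (QuotientGroup.mk' N)) hg
  rw [comap_map_eq, comap_map_eq, QuotientGroup.ker_mk'] at hg'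
  suffices h : ∃ u : G, MulAut.conj u • (MulAut.conj g • C) = D by
    obtain ⟨u, hu⟩ := h
    exact ⟨u * g, by rw [H1.conj_mul_smul, hu]⟩
  have hC' : Group.IsNilpotent (MulAut.conj g • C : Subgroup G) := isNilpotent_map' hC _
  have hCn' := conjC g C hCn
  generalize MulAut.conj g • C = E at hg' hC' hCn'
  by_cases hU : D ⊔ N = ⊤
  swap
  · obtain ⟨u, -, hu⟩ := sub _ hU E D hC' hCn' hD hDn (hg' ▸ le_sup_left) le_sup_left
    exact ⟨u, hu⟩
  by_cases hnil : Group.IsNilpotent G
  · have h1 := normalizerCondition_of_isNilpotent (G := G)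
    rw [normalizerCondition_iff_only_full_group_self_normalizing] at h1
    exact ⟨1, by rw [h1 E hCn', h1 D hDn]; simp⟩
  have h2 : ∃ q : ℕ, q.Prime ∧ q ≠ p ∧ ∀ Q : Sylow q G, ¬ (Q : Subgroup G).Normal := by
    by_contra hc
    push Not at hc
    refine hnil (H1.isNilpotent_of_exists_sylow_normal fun q hq => ?_)
    by_cases hqp : q = p
    · subst hqp
      have hq' : Group.IsNilpotent (G ⧸ N) := by
        have h3 := isNilpotent_map' hD (QuotientGroup.mk' N)
        have h4 : D.map (QuotientGroup.mk' N) = ⊤ := by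
          have := congrArg (map (QuotientGroup.mk' N)) hU
          rwa [Subgroup.map_sup, QuotientGroup.map_mk'_self, sup_bot_eq,
            map_top_of_surjective _ (QuotientGroup.mk'_surjective N)] at this
        rw [h4] at h3
        exact nilpotent_of_surjective (⊤ : Subgroup (G ⧸ N)).subtype fun x => ⟨⟨x, trivial⟩, rfl⟩
      let P : Sylow q G := default
      refine ⟨P, ?_⟩
      have h5 : ((P.mapSurjective (QuotientGroup.mk'_surjective N) : Sylow q (G ⧸ N)) :
        Subgroup (G ⧸ N)).Normal := inferInstance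
      have h6 := h5.comap (QuotientGroup.mk' N)
      rwa [Sylow.coe_mapSurjective, comap_map_eq, QuotientGroup.ker_mk',
        sup_eq_left.mpr (hNp.le_sylow_of_normal P)] at h6
    · exact hc q hq hqp
  obtain ⟨q, hq, hqp, hQ⟩ := h2
  have := Fact.mk hq
  obtain ⟨Q₁, hQ₁⟩ := exists_sylow_normalized hqp hNp (hg'.trans hU) hC'
  obtain ⟨Q₂, hQ₂⟩ := exists_sylow_normalized hqp hNp hU hD
  obtain ⟨x, hx⟩ := MulAction.exists_smul_eq G Q₁ Q₂
  obtain ⟨u, -, hu⟩ := sub (normalizer (Q₂ : Set G))
    (fun h => hQ Q₂ (normalizer_eq_top_iff.mp h)) (MulAut.conj x • E) D (isNilpotent_map' hC' _)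
    (conjC x E hCn') hD hDn (by
      intro y hy
      rw [H1.mem_conj_smul] at hy
      have h7 := hQ₁ hy
      rw [← Sylow.smul_eq_iff_mem_normalizer] at h7 ⊢
      rw [← hx, ← mul_smul]
      rw [mul_assoc, mul_smul, inv_smul_eq_iff] at h7
      exact h7) hQ₂
  exact ⟨u * x, by rw [H1.conj_mul_smul, hu]⟩

end Cfsg.Agent.H2
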