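import Mathlib
import Cfsg.Agent.FT.B9
import Cfsg.Agent.H4.Taussky
import Cfsg.Agent.H2.Quat

/-! `2`-groups with a self-centralizing elementary abelian subgroup of order eight: tools and the
case where it contains a normal four-group. -/

set_option autoImplicit false
set_option linter.unusedSectionVars false

namespace Cfsg.Agent.H2.Har

open Subgroup Cfsg.Agent.H1 Cfsg.Agent.L Cfsg.Agent.FT
open scoped Pointwise commutatorElement

variable {G : Type*} [Group G] [Finite G] {A B H J K L M N R S T U : Subgroup G}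
  {a b c g h k s t u x y z : G}

theorem P2 : Nat.Prime 2 := Nat.prime_two

theorem cm_mul (s t b : G) : ⁅s * t, b⁆ = s * ⁅t, b⁆ * s⁻¹ * ⁅s, b⁆ := by group

theorem cm_mul' (s t b : G) : ⁅b, s * t⁆ = ⁅b, s⁆ * (s * ⁅b, t⁆ * s⁻¹) := by group

theorem cm_one (h : s ∈ 𝐂[b]) : ⁅s, b⁆ = 1 := B9.commEl_eq_one_iff.2 (mem_cent1.1 h)

theorem cm_mul_cent (h : t ∈ 𝐂[b]) (s : G) : ⁅s * t, b⁆ = ⁅s, b⁆ := by
  rw [cm_mul, cm_one h]; group

theorem mem_cent_of_cm (h : ⁅s, b⁆ = ⁅t, b⁆) : s⁻¹ * t ∈ 𝐂[b] := by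
  simp only [commutatorElement_def, mul_left_inj] at h
  refine mem_cent1.2 ?_
  calc s⁻¹ * t * b = s⁻¹ * (t * b * t⁻¹) * t := by group
    _ = _ := by rw [← h]; group

theorem conj_cent' (h : s ∈ 𝐂[b]) : s * b * s⁻¹ = b := by rw [mem_cent1.1 h]; group

theorem conj_cent'' (h : s ∈ 𝐂(U)) (hu : u ∈ U) : s * u * s⁻¹ = u :=
  conj_cent' (cent_le_cent1 hu h)

theorem mul_mem_two (h : A.relIndex B ∣ 2) (hx : x ∈ B) (hy : y ∈ B) (hx' : x ∉ A) (hy' : y ∉ A) :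
    x * y ∈ A := by
  have e : (A.subgroupOf B).index = 2 := ((Nat.dvd_prime P2).1 h).resolve_left fun e =>
    hx' (relIndex_eq_one.1 e hx)
  exact mem_subgroupOf.1 ((mul_mem_iff_of_index_two e (a := ⟨x, hx⟩) (b := ⟨y, hy⟩)).2
    (iff_of_false hx' hy'))

/-- decomposition along an index two subgroup -/
theorem cases_two (h : A.relIndex B ∣ 2) (hx : x ∈ B) (hx' : x ∉ A) (hy : y ∈ B) :
    y ∈ A ∨ ∃ s ∈ A, y = s * x := by
  by_cases c : y ∈ A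
  exacts [Or.inl c, Or.inr ⟨y * x⁻¹, mul_mem_two h hy (inv_mem hx) c (by simpa using hx'), by group⟩]

theorem ncard_cm (T : Subgroup G) (b : G) :
    {k | ∃ t ∈ T, k = ⁅t, b⁆}.ncard = (𝐂[b]).relIndex T := by
  let f : T ⧸ (𝐂[b]).subgroupOf T → G := Quotient.lift (fun r : T => ⁅(r : G), b⁆)
    fun s t hab => by
      have := cm_mul_cent (mem_subgroupOf.1 (QuotientGroup.leftRel_apply.1 hab)) (s : G)
      simpa using this.symm
  have hf : Function.Injective f := fun s t => by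
    induction s using Quotient.inductionOn with | _ s => ?_
    induction t using Quotient.inductionOn with | _ t => ?_
    exact fun e => Quotient.sound (QuotientGroup.leftRel_apply.2 (mem_subgroupOf.2
      (mem_cent_of_cm e)))
  have : {k | ∃ t ∈ T, k = ⁅t, b⁆} = Set.range f := by
    ext k
    exact ⟨fun ⟨t, ht, e⟩ => ⟨Quotient.mk _ ⟨t, ht⟩, e.symm⟩, fun ⟨q, e⟩ => by
      induction q using Quotient.inductionOn with | _ q => exact ⟨q, q.2, e.symm⟩⟩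
  rw [this, Set.ncard_range_of_injective hf]; rfl

theorem card_inf_mul (A B : Subgroup G) : #|A ⊓ B| * B.relIndex A = #|A| := by
  rw [← card_mul_relIndex_of_le (inf_le_left : A ⊓ B ≤ A), inf_relIndex_left]

theorem card_mul (h : A ≤ B) : #|A| * A.relIndex B = #|B| := card_mul_relIndex_of_le h

/-- `K` is the set of commutators `⁅t, b⁆`, `t ∈ T`, for an involution `b` of `T`. -/
structure Cm (b : G) (T K : Subgroup G) : Prop where
  hb : b ∈ T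
  b2 : b * b = 1
  mem : ∀ k, k ∈ K ↔ ∃ t ∈ T, k = ⁅t, b⁆

theorem Cm.of_card (hb : b ∈ T) (b2 : b * b = 1) (h : ∀ t ∈ T, ⁅t, b⁆ ∈ K)
    (hc : #|K| * #|T ⊓ 𝐂[b]| ≤ #|T|) : Cm b T K := by
  have : {k | ∃ t ∈ T, k = ⁅t, b⁆} = (K : Set G) := Set.eq_of_subset_of_ncard_le
    (fun _ ⟨t, ht, e⟩ => e ▸ h t ht) (by
      rw [ncard_cm, ← Nat.card_coe_set_eq]
      rw [← card_inf_mul T 𝐂[b], mul_comm] at hc
      exact Nat.le_of_mul_le_mul_left hc Nat.card_pos)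
  exact ⟨hb, b2, fun k => (Set.ext_iff.1 this k).symm⟩

namespace Cm

theorem card (h : Cm b T K) : #|K| * #|T ⊓ 𝐂[b]| = #|T| := by
  rw [← card_inf_mul T 𝐂[b], ← ncard_cm, mul_comm, ← Nat.card_coe_set_eq]
  congr 2
  exact congrArg (fun s : Set G => (s : Type _)) (Set.ext h.mem)

theorem cm (h : Cm b T K) (ht : t ∈ T) : ⁅t, b⁆ ∈ K := (h.mem _).2 ⟨t, ht, rfl⟩

theorem le_der (h : Cm b T K) : K ≤ ⁅T, T⁆ := fun k hk => by
  obtain ⟨t, ht, rfl⟩ := (h.mem k).1 hk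
  exact commutator_mem_commutator ht h.hb

theorem le (h : Cm b T K) : K ≤ T := h.le_der.trans (der1_le T)

theorem binv (h : Cm b T K) : b⁻¹ = b := inv_eq_of_mul_eq_one_right h.b2

theorem inv (h : Cm b T K) (hk : k ∈ K) : b * k * b⁻¹ = k⁻¹ := by
  obtain ⟨t, -, rfl⟩ := (h.mem k).1 hk
  calc _ = b * t * b * t⁻¹ * (b * b)⁻¹ := by group
    _ = b * t * b⁻¹ * t⁻¹ := by rw [h.b2, h.binv]; group
    _ = _ := by group

theorem comm (h : Cm b T K) : IsMulCommutative K := comm_iff_le_cent.2 fun x hx => mem_cent.2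
  fun y hy => by
    have e : b * (x * y) * b⁻¹ = (b * x * b⁻¹) * (b * y * b⁻¹) := by group
    rw [h.inv (mul_mem hx hy), h.inv hx, h.inv hy, ← mul_inv_rev, inv_inj] at e
    exact e.symm

theorem sq (h : Cm b T K) (hk : k ∈ K) : ⁅k, b⁆ = k * k := by
  calc _ = k * (b * k * b⁻¹)⁻¹ := by group
    _ = _ := by rw [h.inv hk, inv_inv]

theorem norm (h : Cm b T K) (h1 : g ∈ 𝐍(T)) (h2 : g ∈ 𝐂[b]) : g ∈ 𝐍(K) :=
  mem_norm_of_conj_le fun k hk => by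
    obtain ⟨l, hl, rfl⟩ := mem_conj'.1 hk
    obtain ⟨t, ht, rfl⟩ := (h.mem l).1 hl
    rw [conjugate_commutatorElement, conj_cent' h2]
    exact h.cm (conj_mem_of_mem_normalizer h1 ht)

theorem normal (h : Cm b T K) : K ⊴ T := ⟨h.le, le_norm_iff.2 fun s hs k hk => by
  obtain ⟨t, ht, rfl⟩ := (h.mem k).1 hk
  have := mul_mem (h.cm (mul_mem hs ht)) (inv_mem (h.cm hs))
  rwa [cm_mul, mul_inv_cancel_right] at this⟩

theorem conj (h : Cm b T K) (hk : k ∈ K) : ∃ t ∈ T, k * b = t * b * t⁻¹ := by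
  obtain ⟨t, ht, rfl⟩ := (h.mem k).1 hk
  exact ⟨t, ht, by group⟩

theorem not_mem (h : Cm b T K) (hn : T ≤ 𝐍(U)) (hb : b ∉ U) (hu : u ∈ U) : u * b ∉ K := fun c => by
  obtain ⟨t, ht, e⟩ := h.conj c
  rw [mul_assoc, h.b2, mul_one] at e
  exact hb ((conj_mem_iff_of_norm' (hn ht)).1 (e ▸ hu))
where
  conj_mem_iff_of_norm' {H : Subgroup G} {g x : G} (hg : g ∈ 𝐍(H)) : g * x * g⁻¹ ∈ H ↔ x ∈ H :=
    ((mem_normalizer_iff.1 hg) x).symm

theorem omega (h : Cm b T K) (hk : k ∈ K) (h2 : k * k = 1) : k ∈ T ⊓ 𝐂[b] :=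
  ⟨h.le hk, mem_cent1.2 (B9.commEl_eq_one_iff.1 ((h.sq hk).trans h2))⟩

end Cm

theorem mem_phi (hJ : IsPGroup 2 J) (hc : IsMulCommutative J) :
    y ∈ phi J ↔ ∃ k ∈ J, y = k * k := by
  refine ⟨fun h => phi_le_of_elem P2 (N := ⟨⟨⟨{y | ∃ k ∈ J, y = k * k}, ?_⟩, 1, one_mem _, by simp⟩,
    ?_⟩) (by rw [comm_self_eq_bot_iff.2 hc]; exact bot_le) (fun x hx => ⟨x, hx, sq x⟩) h,
    fun ⟨k, hk, e⟩ => e ▸ sq k ▸ pow_mem_phi P2 hJ hk⟩
  · rintro _ _ ⟨k, hk, rfl⟩ ⟨l, hl, rfl⟩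
    refine ⟨k * l, mul_mem hk hl, ?_⟩
    calc _ = k * (k * l) * l := by group
      _ = k * (l * k) * l := by rw [mul_comm_of_comm hc hk hl]
      _ = _ := by group
  · rintro _ ⟨k, hk, rfl⟩
    exact ⟨k⁻¹, inv_mem hk, by group⟩

theorem sq_mem_phi (hJ : IsPGroup 2 J) (hk : k ∈ J) : k * k ∈ phi J := sq k ▸ pow_mem_phi P2 hJ hk

open scoped IsMulCommutative in
theorem relIndex_phi (hJ : IsPGroup 2 J) (hc : IsMulCommutative J) :
    (phi J).relIndex J = #|omegaOne 2 J| := by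
  let f : J →* J := powMonoidHom 2
  have e1 : f.range = (phi J).subgroupOf J := by
    ext y
    rw [mem_subgroupOf, mem_phi hJ hc]
    exact ⟨fun ⟨k, e⟩ => ⟨k, k.2, by rw [← e]; simp [f, sq]⟩,
      fun ⟨k, hk, e⟩ => ⟨⟨k, hk⟩, Subtype.ext (by simp [f, sq, e])⟩⟩
  have e2 : f.ker = (omegaOne 2 J).subgroupOf J := by
    ext y
    rw [mem_subgroupOf, MonoidHom.mem_ker]
    exact ⟨fun e => mem_omega y.2 (congrArg Subtype.val e),
      fun e => Subtype.ext (pow_eq_one_of_mem_omega hc e)⟩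
  have e3 := f.ker.card_mul_index
  rw [index_ker, ← f.range.card_mul_index, mul_comm, e2, e1] at e3
  rw [relIndex, ← Nat.eq_of_mul_eq_mul_left Nat.card_pos e3,
    Nat.card_congr (subgroupOfEquivOfLe (omega_le 2 J)).toEquiv]

/-- `H` needs at least five generators -/
def Bad (H : Subgroup G) : Prop := 16 < (phi H).relIndex H

theorem Bad.conj (h : Bad H) (g : G) : Bad (g ⋆ H) := by
  unfold Bad
  rwa [← conj_phi, relIndex_conj]

theorem Bad.le32 (h : Bad H) (hH : IsPGroup 2 H) : 32 ≤ (phi H).relIndex H := by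
  obtain ⟨n, e⟩ := pgroup_relIndex P2 hH (phi H)
  unfold Bad at h
  rw [e] at h ⊢
  exact Nat.pow_le_pow_right (i := 5) two_pos ((Nat.pow_lt_pow_iff_right (n := 4) one_lt_two).1 h)

theorem relIndex_phi_le (hH : IsPGroup 2 H) (hx : x ∈ H) : (phi H).relIndex H ≤ #|H ⊓ 𝐂[x]| := by
  have := B9.relIndex_cent1_le (R := H) (x := x) fun r hr =>
    B9.der1_le_phi P2 hH (commutator_mem_commutator hr hx)
  have e := card_mul (phi_le H)
  rw [← card_inf_mul H 𝐂[x], mul_comm #|H ⊓ 𝐂[x]|] at e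
  exact Nat.le_of_mul_le_mul_left (e.le.trans (Nat.mul_le_mul_right _ this)) Nat.card_pos

theorem cnt (hH : IsPGroup 2 H) (hJ : J ≤ H) (hc : IsMulCommutative J) (hU : omegaOne 2 J ≤ U)
    (h4 : #|U| = 4) (h8 : J.relIndex H ≤ 8) (hb : Bad H) :
    J.relIndex H = 8 ∧ phi H = phi J ∧ U ≤ J := by
  have h1 := hb.le32 hH
  have h2 := card_le_of_le' hU
  have h3 := relIndex_mul_relIndex _ _ _ (phi_mono P2 hH hJ) (phi_le H)
  rw [← relIndex_mul_relIndex _ _ _ (phi_le J) hJ, relIndex_phi (hH.to_le hJ) hc] at h3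
  have h5 := Nat.pos_of_ne_zero (relIndex_ne_zero' (phi J) (phi H))
  refine ⟨by nlinarith, le_antisymm (relIndex_eq_one.1 (by nlinarith)) (phi_mono P2 hH hJ),
    (eq_of_le_of_card_le hU (by nlinarith)).ge.trans (omega_le 2 J)⟩

theorem eight_le (hT : IsPGroup 2 T) (hU : U ≤ zent T) (hc : ¬ IsCyclic U) (h8 : 8 ≤ #|T|) :
    8 ≤ (⁅T, T⁆ : Subgroup G).relIndex T := by
  obtain ⟨n, e⟩ := pgroup_relIndex P2 hT ⁅T, T⁆
  by_contra hn
  have : n ≤ 2 := by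
    by_contra c
    exact hn (e ▸ Nat.pow_le_pow_right (i := 3) two_pos (by omega))
  rcases this.eq_or_lt with rfl | c
  · obtain ⟨m, hm⟩ := pgroup_card P2 hT
    obtain ⟨m, rfl⟩ : ∃ k, m = k + 3 := ⟨m - 3, by
      have := (Nat.pow_le_pow_iff_right (n := 3) one_lt_two).1 (hm ▸ h8); omega⟩
    obtain ⟨a, t, ha, ht, -, hne⟩ := H4.taussky hm (by
      rw [der1_eq_commutator, relIndex, subgroupOf, comap_map_eq_self_of_injective T.subtype_injective]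
        at e
      exact e)
    obtain ⟨u, hu, hu'⟩ := SetLike.not_le_iff_exists.1 fun c : U ≤ zpowers (a : G) =>
      hc (cyclic_of_le (cyclic_zpowers _) c)
    have hu'' : (⟨u, (hU hu).1⟩ : T) ∉ zpowers a := fun c => hu' (by
      obtain ⟨i, hi⟩ := c; exact ⟨i, by simpa using congrArg Subtype.val hi⟩)
    refine hne ((H4.conj_cases_of_index_two (H4.index_zpowers_eq_two hm ha) hu'' t).elim id
      fun e => e.trans (Subtype.ext (conj_cent'' (hU hu).2 a.2)))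
  · refine hc (cyclic_of_le (B9.cyclic_of_cycMod_der1 P2 hT le_rfl (B9.cycMod_of_relIndex P2
      (der1_le T) (e ▸ pow_dvd_pow 2 (Nat.lt_succ_iff.1 c)))) (hU.trans (zent_le T)))

/-- a four-group -/
structure Four (U : Subgroup G) : Prop where
  ab : IsElementaryAbelian 2 U
  card : #|U| = 4

theorem Four.not_cyclic (h : Four U) : ¬ IsCyclic U := B9.not_cyclic_of_exp P2 h.ab.2 h.card.symm.dvd

theorem Four.sq (h : Four U) (hu : u ∈ U) : u * u = 1 := (_root_.sq u).symm.trans (h.ab.2 u hu)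

theorem mem_sup_inv (hx : x ∈ 𝐍(A)) (h1 : x ∉ A) (h2 : x * x ∈ A) (hy : y ∈ A ⊔ zpowers x) :
    y ∈ A ∨ ∃ s ∈ A, y = s * x :=
  cases_two (B9.relIndex_sup_zpowers P2 hx h1 (sq x ▸ h2)).dvd (B9.mem_sup_zpowers_self A x) h1 hy

theorem calT (hT : IsPGroup 2 T) (hU : Four U) (hZ : U ≤ zent T) (ha : a ∈ T) (ha' : a ∉ U)
    (a2 : a * a = 1) (hC : T ⊓ 𝐂[a] = U ⊔ zpowers a) :
    Cm a T ⁅T, T⁆ ∧ (⁅T, T⁆ : Subgroup G).relIndex T = 8 ∧ #|T ⊓ 𝐂[a]| = 8 ∧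
      ∀ k ∈ (⁅T, T⁆ : Subgroup G), k * k = 1 → k ∈ U := by
  have nU : T ≤ 𝐍(U) := (NormalIn.of_le_zent hZ).norm
  have c8 : #|T ⊓ 𝐂[a]| = 8 := by
    rw [hC, B9.card_sup_zpowers P2 (nU ha) ha' (by rw [sq, a2]; exact one_mem _), hU.card]
  have := eight_le hT hZ hU.not_cyclic (c8 ▸ card_le_of_le' inf_le_left)
  have c := Cm.of_card ha a2 (fun t ht => commutator_mem_commutator ht ha)
    (by rw [c8, ← card_mul (der1_le T)]; exact Nat.mul_le_mul_left _ this)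
  refine ⟨c, ?_, c8, fun k hk k2 => ?_⟩
  · have e := c.card
    rw [c8, ← card_mul (der1_le T)] at e
    exact (Nat.eq_of_mul_eq_mul_left Nat.card_pos e).symm
  · exact (mem_sup_inv (nU ha) ha' (a2 ▸ one_mem _) (hC.le (c.omega hk k2))).elim id
      fun ⟨u, hu, e⟩ => absurd (e ▸ hk) (c.not_mem nU ha' hu)

theorem exists_z (hS : IsPGroup 2 S) (hU : Four U) (hn : U ⊴ S) :
    ∃ z ∈ U, z ∈ 𝐂(S) ∧ z ≠ 1 ∧ (zpowers z).relIndex U = 2 ∧ (𝐂(U)).relIndex S ∣ 2 ∧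
      ∀ s ∈ S, ∀ u ∈ U, ⁅u, s⁆ ∈ zpowers z := by
  obtain ⟨z, hz, hc, z1, z2⟩ := B9.exists_central_order_prime P2 hS hn fun e => by
    have := hU.card; rw [e, card_bot] at this; omega
  have i := B9.relIndex_eq_of_card_eq (n := 2) (zpowers_le.2 hz)
    (by rw [B9.card_zpowers_prime P2 z1 z2, hU.card])
  have nz : S ≤ 𝐍(zpowers z) := le_norm_zpowers_of_cent (le_cent1_iff.2 hc.2)
  have hcm := B9.comm_le_of_relIndex_dvd P2 hS (hS.to_le hn.le)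
    ⟨zpowers_le.2 hz, hn.le.trans nz⟩ nz hn.norm i.dvd
  refine ⟨z, hz, hc.2, z1, i, ?_, fun s hs u hu => B9.comm_mem_of_le hcm hu hs⟩
  obtain ⟨u, hu, hu'⟩ := B9.exists_not_mem_of_relIndex (A := zpowers z) (S := U) (by omega)
  have := B9.relIndex_cent1_le (R := S) (x := u) fun r hr =>
    B9.comm_mem_symm (B9.comm_mem_of_le hcm hu hr)
  rw [B9.card_zpowers_prime P2 z1 z2, ← inf_relIndex_left] at this
  rw [← B9.sup_zpowers_eq P2 (zpowers_le.2 hz) i hu hu', cent_sup, cent_zpowers, cent_zpowers,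
    ← inf_relIndex_left, ← inf_assoc, inf_eq_left.2 (le_cent1_iff.2 hc.2)]
  obtain ⟨n, e⟩ := pgroup_relIndex P2 hS (S ⊓ 𝐂[u])
  exact e ▸ B9.prime_pow_dvd_of_le P2 (b := 1) (e ▸ this)

/-- `T` acts trivially on `K / Φ(K)` -/
theorem Cm.triv (h : Cm b T K) (hT : IsPGroup 2 T) (h1 : ⁅T, T⁆ ≤ K) (h2 : ∀ x ∈ T, x * x ∈ K)
    (hU : Four U) (h4 : ∀ k ∈ K, k * k = 1 → k ∈ U) : ⁅K, T⁆ ≤ phi K := by
  have hK := hT.to_le h.le
  have nP := h.normal.phi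
  by_cases c : K ≤ phi K
  · exact (h.normal.comm_le_left le_rfl).trans c
  obtain ⟨L, nL, l1, l2, l3, l4⟩ := B9.exists_normal_succ P2 hT nP h.normal c
  rw [sup_eq_right.2 (phi_le K)] at l2
  have i : L.relIndex K ∣ 2 := by
    have e := relIndex_mul_relIndex _ _ _ l1 l2
    rw [B9.relIndex_eq_of_card_eq l1 l3, relIndex_phi hK h.comm] at e
    have := card_dvd_of_le' (omega_le_iff.2 fun x hx x2 => h4 x hx (by rwa [← pow_two]) :
      omegaOne 2 K ≤ U)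
    rw [hU.card, ← e] at this
    exact Nat.dvd_of_mul_dvd_mul_left two_pos this
  have f1 : ∀ x ∈ T, ⁅⁅x, b⁆, x⁆ ∈ phi K := fun x hx => by
    have e := h.sq (h2 x hx) ▸ sq_mem_phi hK (h2 x hx)
    rw [cm_mul] at e
    have := mul_mem (sq_mem_phi hK (h.cm hx)) (inv_mem e)
    convert this using 1
    group
  rw [commutator_le]
  intro k hk y hy
  obtain ⟨x, hx, rfl⟩ := (h.mem k).1 hk
  by_cases d : ⁅x, b⁆ ∈ L
  · exact B9.comm_mem_of_le l4 d hy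
  have f2 : ∀ k ∈ K, ⁅k, x⁆ ∈ phi K := fun k hk => (cases_two i (h.cm hx) d hk).elim
    (fun e => B9.comm_mem_of_le l4 e hx) fun ⟨s, hs, e⟩ => by
      rw [e, cm_mul]
      exact mul_mem (nP.conj_mem (nL.le hs) (f1 x hx)) (B9.comm_mem_of_le l4 hs hx)
  have hc := B9.comm_mem_of_le h1 hx hy
  have e : ⁅x * y, b⁆ = ⁅⁅x, y⁆ * (y * x), b⁆ := by congr 1; group
  rw [cm_mul, cm_mul ⁅x, y⁆, h.sq hc, cm_mul y, conj_cent'' (le_cent_self h.comm hc) (mul_mem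
    (h.normal.conj_mem hy (h.cm hx)) (h.cm hy))] at e
  have e1 := f2 _ (h.cm hy)
  have e2 := sq_mem_phi hK hc
  have c1 := h.normal.conj_mem hy (h.cm hx)
  have c2 := h.normal.conj_mem hx (h.cm hy)
  have : ⁅⁅x, b⁆, y⁆ = ⁅⁅y, b⁆, x⁆ * (⁅x, y⁆ * ⁅x, y⁆) := by
    rw [commutatorElement_def ⁅x, b⁆, commutatorElement_def ⁅y, b⁆]
    have m := fun {u v : G} (hu : u ∈ K) (hv : v ∈ K) => mul_comm_of_comm h.comm hu hv
    calc _ = (x * ⁅y, b⁆ * x⁻¹)⁻¹ * (x * ⁅y, b⁆ * x⁻¹ * ⁅x, b⁆) * (y * ⁅x, b⁆ * y⁻¹)⁻¹ := by group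
      _ = (x * ⁅y, b⁆ * x⁻¹)⁻¹ * ((⁅y, b⁆ * (⁅x, y⁆ * ⁅x, y⁆)) * (y * ⁅x, b⁆ * y⁻¹)) *
          (y * ⁅x, b⁆ * y⁻¹)⁻¹ := by
        rw [e, m (mul_mem (h.cm hy) (mul_mem hc hc)) c1, mul_assoc (y * ⁅x, b⁆ * y⁻¹)]
      _ = (x * ⁅y, b⁆ * x⁻¹)⁻¹ * ⁅y, b⁆ * (⁅x, y⁆ * ⁅x, y⁆) := by group
      _ = _ := by rw [m (inv_mem c2) (h.cm hy)]; group
  exact this ▸ mul_mem e1 e2

theorem relIndex_lt (hS : IsPGroup 2 S) (hK : K ≤ R) (hR : R < S) {n : ℕ}
    (h : K.relIndex S ≤ 2 * n) : K.relIndex R ≤ n := by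
  have e := relIndex_mul_relIndex _ _ _ hK hR.le
  have h1 : R.relIndex S ≠ 1 := fun c => hR.not_ge (relIndex_eq_one.1 c)
  have h0 := relIndex_ne_zero' R S
  have : 2 ≤ R.relIndex S := by omega
  nlinarith

end Cfsg.Agent.H2.Har
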