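import Cfsg.Agent.H2.Harada

/-! Harada's theorem: a `2`-group with a self-centralizing `E₈` has sectional rank at most four. -/

set_option autoImplicit false
set_option linter.unusedSectionVars false

namespace Cfsg.Agent.H2.Har

open Subgroup Cfsg.Agent.H1 Cfsg.Agent.L Cfsg.Agent.FT
open scoped Pointwise commutatorElement

variable {G : Type*} [Group G] [Finite G] {A B H J K L M N R S T U X : Subgroup G}
  {a b c g h k s t u x y z : G}

theorem card_inf_le (hT : T ≤ S) (i : T.relIndex S ∣ 2) (X : Subgroup G) :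
    #|S ⊓ X| ≤ 2 * #|T ⊓ X| := by
  rw [← card_inf_mul (S ⊓ X) T, inf_right_comm, inf_eq_right.2 hT, mul_comm]
  exact Nat.mul_le_mul_right _ ((relIndex_le_of_le_right inf_le_left (relIndex_ne_zero' T S)).trans
    (Nat.le_of_dvd two_pos i))

theorem sq_sup (nK : H ≤ 𝐍(K)) (h : ∀ x ∈ H, x * x ∈ K) : ∀ r ∈ K ⊔ H, r * r ∈ K := fun r hr => by
  obtain ⟨k, hk, x, hx, rfl⟩ := ((NormalIn.sup_left nK).mem_sup le_sup_right).1 hr
  have := mul_mem (mul_mem hk (conj_mem_of_mem_normalizer (nK hx) hk)) (h x hx)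
  convert this using 1; group

theorem der_sup (nK : H ≤ 𝐍(K)) (h : ⁅H, H⁆ ≤ K) : ⁅K ⊔ H, K ⊔ H⁆ ≤ K := by
  rw [der1_sup _ _ nK]
  exact sup_le (sup_le (der1_le K) (comm_le_left nK)) h

theorem cm_cm (b2 : b * b = 1) (t : G) : ⁅⁅t, b⁆, b⁆ = ⁅t, b⁆ * ⁅t, b⁆ := by
  calc _ = ⁅t, b⁆ * (b * t * b * t⁻¹ * (b * b)⁻¹)⁻¹ := by group
    _ = ⁅t, b⁆ * (b * t * b⁻¹ * t⁻¹)⁻¹ := by rw [b2, inv_eq_of_mul_eq_one_right b2]; group
    _ = _ := by group

theorem thmA (hS : IsPGroup 2 S) (hU : Four U) (nU : U ⊴ S) (ha : a ∈ S) (haU : a ∈ 𝐂(U))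
    (ha' : a ∉ U) (a2 : a * a = 1) (hC : S ⊓ 𝐂(U) ⊓ 𝐂[a] = U ⊔ zpowers a) (hH : H ≤ S) :
    ¬ Bad H := fun hb => by
  obtain ⟨z, -, -, -, -, iT, -⟩ := exists_z hS hU nU
  rw [← inf_relIndex_left] at iT
  have nT : S ⊓ 𝐂(U) ⊴ S := NormalIn.subcent nU.norm
  have TC : S ⊓ 𝐂(U) ≤ 𝐂(U) := inf_le_right
  have CT : ∀ x ∈ S, x ∈ 𝐂(U) → x ∈ S ⊓ 𝐂(U) := fun x a b => ⟨a, b⟩
  have UZ : U ≤ zent (S ⊓ 𝐂(U)) := le_zent (le_inf nU.le (le_cent_self hU.ab.1)) (le_cent_symm TC)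
  generalize S ⊓ 𝐂(U) = T at *
  have hT := hS.to_le nT.le
  have aT := CT a ha haU
  obtain ⟨c, i8, c8, om⟩ := calT hT hU UZ aT ha' a2 hC
  have nK := nT.der1'
  have dK : ⁅T, T⁆ ≤ ⁅T, T⁆ := le_rfl
  generalize hK : ⁅T, T⁆ = K at c i8 om nK
  replace dK := hK.le
  have pH := hS.to_le hH
  have pK := hS.to_le nK.le
  have nH := hH.trans nK.norm
  have aR : a ∉ K ⊔ H := fun e => by
    obtain ⟨k, hk, h, hh, e⟩ := (nK.mem_sup hH).1 e
    obtain ⟨t, ht, e'⟩ := c.conj (inv_mem hk)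
    have h1 := relIndex_phi_le pH hh
    have h2 : #|H ⊓ 𝐂[h]| ≤ #|S ⊓ 𝐂[a]| := by
      rw [← card_conj t (S ⊓ _), conj_inf, conj_cent1, ← e', ← e, conj_of_mem (nT.le ht),
        inv_mul_cancel_left]
      exact card_le_of_le' (inf_le_inf_right _ hH)
    have h3 := card_inf_le nT.le iT 𝐂[a]
    unfold Bad at hb
    omega
  have RS : K ⊔ H < S := lt_of_le_of_ne (sup_le nK.le hH) fun e => aR (e ▸ ha)
  have e1 := relIndex_mul_relIndex _ _ _ c.le nT.le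
  have e2 := relIndex_mul_relIndex _ _ _ (le_sup_left : K ≤ K ⊔ H) RS.le
  have e3 := relIndex_lt hS le_sup_left RS (n := 8) (by have := Nat.le_of_dvd two_pos iT; nlinarith)
  rw [relIndex_sup_of_norm nH] at e2 e3
  obtain ⟨j8, jp, UJ⟩ := cnt pH inf_le_left (comm_of_le c.comm inf_le_right) (omega_le_iff.2
    fun x hx x2 => om x hx.2 (by rwa [← pow_two])) hU.card (by rwa [inf_relIndex_left]) hb
  rw [inf_relIndex_left] at j8
  have pk : phi H ≤ phi K := jp ▸ phi_mono P2 pK inf_le_right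
  have dH := (B9.der1_le_phi P2 pH).trans pk
  have iR : (K ⊔ H).relIndex S = T.relIndex S := by rw [j8, ← e1, i8] at e2; omega
  have nR := B9.normal_of_relIndex P2 hS RS.le (iR ▸ iT)
  have dR := der_sup nH (dH.trans (phi_le K))
  have sR := sq_sup nH fun x hx => phi_le K (pk (sq_mem_phi pH hx))
  have KR : K ≤ K ⊔ H := le_sup_left
  have HR : H ≤ K ⊔ H := le_sup_right
  have mR : ∀ r ∈ K ⊔ H, ∃ k ∈ K, ∃ h ∈ H, k * h = r := fun r => (nK.mem_sup hH).1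
  obtain ⟨h, hh, hh'⟩ := SetLike.not_le_iff_exists.1 fun e : H ≤ T => aR
    ((eq_of_le_of_card_le (sup_le c.le e) (by
      have := card_mul nT.le
      rw [← card_mul RS.le, iR] at this
      exact (Nat.eq_of_mul_eq_mul_right (Nat.pos_of_ne_zero (relIndex_ne_zero' T S)) this).le)).ge aT)
  generalize K ⊔ H = R at *
  have cT : ∀ t ∈ T, t ∈ R ∨ ∃ s ∈ T ⊓ R, t = s * a := fun t ht =>
    (cases_two (iR ▸ iT) ha aR (nT.le ht)).imp_right fun ⟨s, hs, e⟩ =>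
      ⟨s, ⟨(mul_mem_cancel_right aT).1 (e ▸ ht), hs⟩, e⟩
  have inU : ∀ x ∈ T, x ∈ 𝐂[a] → x ∈ R → x ∈ U := fun x h1 h2 h3 =>
    (mem_sup_inv (nU.norm ha) ha' (a2 ▸ one_mem _) (hC.le ⟨h1, h2⟩)).elim id fun ⟨u, hu, e⟩ =>
      absurd ((mul_mem_cancel_left (HR (UJ hu).1)).1 (e ▸ h3)) aR
  have onto : ∀ k ∈ K, ∃ x ∈ T ⊓ R, k = ⁅x, a⁆ := fun k hk => by
    obtain ⟨t, ht, rfl⟩ := (c.mem k).1 hk
    exact (cT t ht).elim (fun e => ⟨t, ⟨ht, e⟩, rfl⟩) fun ⟨s, hs, e⟩ =>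
      ⟨s, hs, e ▸ cm_mul_cent (self_mem_cent1 a) s⟩
  have tr := c.triv hT dK (fun x hx => (cT x hx).elim (sR x) fun ⟨s, hs, e⟩ => by
    have := mul_mem (sR s hs.2) (c.cm (inv_mem hs.1))
    rw [commutatorElement_def, c.binv] at this
    convert this using 1; rw [e]; group) hU om
  have nP := nK.phi
  have m1 : ⁅h, a⁆ ∈ T := B9.commEl_mem_right (nT.norm (hH hh)) aT
  have m2 : ⁅h, a⁆ ∈ R := B9.commEl_mem_left (HR hh) (nR.norm ha)
  have m3 : ⁅h, a⁆ ∈ K := by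
    have : ⁅h, a⁆ * ⁅h, a⁆ ∈ phi K := by
      obtain ⟨k, hk, l, hl, e⟩ := mR _ m2
      have := mul_mem (mul_mem (sq_mem_phi pK hk) (B9.comm_mem_of_le tr (inv_mem hk)
        ((mul_mem_cancel_left (c.le hk)).1 (e ▸ m1)))) (pk (sq_mem_phi pH hl))
      convert this using 1; rw [← e]; group
    obtain ⟨k, hk, e⟩ := (mem_phi pK c.comm).1 this
    have e' : ⁅k, a⁆ = ⁅⁅h, a⁆, a⁆ := by rw [c.sq hk, ← e, cm_cm a2]
    exact (mul_mem_cancel_left (inv_mem hk)).1 (UJ (inU _ (mul_mem (inv_mem (c.le hk)) m1)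
      (mem_cent_of_cm e') (mul_mem (inv_mem (KR hk)) m2))).2
  obtain ⟨t, ht, e⟩ := onto _ m3
  have ga := mem_cent_of_cm e.symm
  have gR : t⁻¹ * h ∈ R := mul_mem (R.inv_mem ht.2) (HR hh)
  have gT : t⁻¹ * h ∉ T := fun c => hh' ((mul_mem_cancel_left (T.inv_mem ht.1)).1 c)
  generalize t⁻¹ * h = g at ga gR gT
  have gS := RS.le gR
  have g2 := inU _ (mul_mem_two iT gS gS gT gT) (mul_mem ga ga) (mul_mem gR gR)
  have m := fun {u v : G} (hu : u ∈ K) (hv : v ∈ K) => mul_comm_of_comm c.comm hu hv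
  have f1 : ∀ x ∈ T ⊓ R, ⁅g, ⁅x, a⁆⁆ = ⁅g, x⁆ * ⁅g, x⁆ := fun x hx => by
    have hc := B9.comm_mem_of_le dR gR hx.2
    rw [commutatorElement_def g, conjugate_commutatorElement, conj_cent' ga,
      show g * x * g⁻¹ = ⁅g, x⁆ * x by group, cm_mul, c.sq hc,
      conj_cent'' (le_cent_self c.comm hc) (c.cm hx.1), m (c.cm hx.1) (mul_mem hc hc)]
    group
  have f2 : ∀ x ∈ T ⊓ R, ⁅g, x⁆ ∈ phi K := fun x hx => by
    obtain ⟨k, hk, l, hl, rfl⟩ := mR _ hx.2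
    obtain ⟨k', hk', l', hl', e⟩ := mR _ gR
    obtain ⟨y, hy, rfl⟩ := onto k hk
    rw [cm_mul', f1 y hy]
    refine mul_mem (sq_mem_phi pK (B9.comm_mem_of_le dR gR hy.2)) (nP.conj_mem (nK.le hk) ?_)
    rw [← e, cm_mul]
    exact mul_mem (nP.conj_mem (nK.le hk') (B9.comm_mem_of_le dH hl' hl))
      (B9.comm_mem_of_le tr hk' ((mul_mem_cancel_left (c.le hk)).1 hx.1))
  have f3 : ∀ n, ∀ k ∈ K, ∃ d ∈ K, ⁅g, k⁆ = ⁅g, d⁆ ^ 2 ^ n := fun n => by
    induction n with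
    | zero => exact fun k hk => ⟨k, hk, by simp⟩
    | succ n ih =>
      intro k hk
      obtain ⟨x, hx, rfl⟩ := onto k hk
      obtain ⟨d, hd, e⟩ := (mem_phi pK c.comm).1 (f2 x hx)
      obtain ⟨d', hd', e'⟩ := ih _ (inv_mem hd)
      refine ⟨d', hd', ?_⟩
      have e2 : g * (d * d) * g⁻¹ = (d * d)⁻¹ := by
        have := mem_cent.1 (TC hx.1) _ g2
        rw [← e]
        calc _ = (g * g * x) * (g⁻¹ * x⁻¹ * g⁻¹) := by group
          _ = x * g * g * (g⁻¹ * x⁻¹ * g⁻¹) := by rw [this]; group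
          _ = _ := by group
      rw [pow_succ, pow_mul, ← e', f1 x hx, e, pow_two]
      have hc := nK.conj_mem gS (inv_mem hd)
      calc _ = (g * (d * d) * g⁻¹)⁻¹ * (d * d) := by rw [e2, inv_inv]
        _ = g * d⁻¹ * g⁻¹ * (g * d⁻¹ * g⁻¹ * d) * d := by group
        _ = _ := by rw [m hc hd]; group
  obtain ⟨n, hn⟩ := pgroup_card P2 pK
  refine gT (CT g gS (mem_cent.2 fun u hu => ?_))
  obtain ⟨d, hd, e⟩ := f3 n u (UJ hu).2
  rw [B9.pow_eq_one_of_card_dvd hn.dvd (B9.commEl_mem_right (nK.norm gS) hd)] at e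
  exact (B9.commEl_eq_one_iff.1 e).symm

theorem exists_max (hT : IsPGroup 2 T) (hL : phi T ≤ L) (hL' : L ≤ T) (hx' : x ∉ L) :
    ∃ X, L ≤ X ∧ X ≤ T ∧ x ∉ X ∧ ∀ t ∈ T, t ∈ X ∨ ∃ s ∈ X, t = s * x := by
  obtain ⟨X, l, hX⟩ := Finite.exists_le_maximal (p := fun X => X ≤ T ∧ x ∉ X) ⟨hL', hx'⟩
  refine ⟨X, l, hX.prop.1, hX.prop.2, fun t ht => or_iff_not_imp_left.2 fun c => ?_⟩
  have : x ∈ X ⊔ zpowers t := by_contra fun d => c (hX.le_of_ge
    ⟨sup_le hX.prop.1 (zpowers_le.2 ht), d⟩ le_sup_left (B9.mem_sup_zpowers_self X t))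
  obtain ⟨s, hs, e⟩ := (mem_sup_inv (le_norm_of_der1_le hX.prop.1
    ((B9.der1_le_phi P2 hT).trans (hL.trans l)) ht) c (l (hL (sq_mem_phi hT ht))) this).resolve_left
      hX.prop.2
  exact ⟨s⁻¹, inv_mem hs, by rw [e]; group⟩

theorem comm_phi_lt (hT : IsPGroup 2 T) (h : ⁅T, T⁆ ≠ ⊥) : ⁅phi T, T⁆ < ⁅T, T⁆ := by
  have pD := hT.to_le (der1_le T)
  have nD := NormalIn.der1 T
  have nN := (nD.comm (NormalIn.refl T)).sup nD.phi
  have : phi T ≤ centMod T (⁅⁅T, T⁆, T⁆ ⊔ phi ⁅T, T⁆) := phi_le_of_elem P2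
    (le_centMod_iff.2 ⟨(der1_le T).trans le_normalizer, (der1_le T).trans nN.norm,
      (commutator_comm _ _).le.trans le_sup_left⟩) fun x hx => B9.mem_centMod.2
      ⟨le_normalizer (pow_mem hx 2), nN.norm (pow_mem hx 2), fun y hy => by
        have h1 := commutator_mem_commutator hy hx
        have := mul_mem (mem_sup_right (sq_mem_phi pD h1)) (mem_sup_left
          (commutator_mem_commutator (inv_mem h1) hx))
        convert this using 1; rw [pow_two]; group⟩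
  refine ((commutator_comm _ _).le.trans (B9.comm_le_of_le_centMod this)).trans_lt
    (lt_of_le_of_ne (sup_le (nD.comm_le_left le_rfl) (phi_le _)) fun e => ?_)
  exact (B9.comm_lt P2 pD hT nD.norm h).ne (eq_of_le_sup_phi (nD.comm_le_left le_rfl) e.ge)

theorem thmB (hS : IsPGroup 2 S) (hU : Four U) (nU : U ⊴ S) (ha : a ∈ S) (haU : a ∉ 𝐂(U))
    (ab : a ∈ 𝐂[b]) (hb : b ∈ S) (hbU : b ∈ 𝐂(U)) (hb' : b ∉ U) (b2 : b * b = 1)
    (c16 : #|S ⊓ 𝐂(U) ⊓ 𝐂[b]| = 16) (hx : x ∈ S ⊓ 𝐂(U) ⊓ 𝐂[b]) (xa : ⁅x, a⁆ = b) (hH : H ≤ S) :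
    ¬ Bad H := fun hB => by
  obtain ⟨z, -, -, -, -, iT, -⟩ := exists_z hS hU nU
  rw [← inf_relIndex_left] at iT
  have nT : S ⊓ 𝐂(U) ⊴ S := NormalIn.subcent nU.norm
  have TC : S ⊓ 𝐂(U) ≤ 𝐂(U) := inf_le_right
  have CT : ∀ x ∈ S, x ∈ 𝐂(U) → x ∈ S ⊓ 𝐂(U) := fun x a b => ⟨a, b⟩
  have UZ : U ≤ zent (S ⊓ 𝐂(U)) := le_zent (le_inf nU.le (le_cent_self hU.ab.1)) (le_cent_symm TC)
  generalize S ⊓ 𝐂(U) = T at *
  have hT := hS.to_le nT.le
  have bT := CT b hb hbU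
  have aT : a ∉ T := fun c => haU (TC c)
  have xT : x ∈ T := hx.1
  have ba := mem_cent1_comm.1 ab
  have UT := UZ.trans (zent_le T)
  have mE := fun {y} => mem_sup_inv (y := y) (nU.norm hb) hb' (b2 ▸ one_mem _)
  have EM : U ⊔ zpowers b ≤ T ⊓ 𝐂[b] := sup_le (le_inf UT (le_cent1_iff.2 hbU))
    (zpowers_le.2 ⟨bT, self_mem_cent1 b⟩)
  have Ea : ∀ e ∈ U ⊔ zpowers b, ⁅e, a⁆ ∈ U := fun e he => (mE he).elim
    (fun c => B9.commEl_mem_left c (nU.norm ha)) fun ⟨u, hu, e'⟩ => by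
      rw [e', cm_mul_cent ba]; exact B9.commEl_mem_left hu (nU.norm ha)
  have xE : x ∉ U ⊔ zpowers b := fun c => hb' (xa ▸ Ea x c)
  have cM := fun {y} => cases_two (y := y) (B9.relIndex_eq_of_card_eq (n := 2) EM (by
    rw [B9.card_sup_zpowers P2 (nU.norm hb) hb' (by rw [pow_two, b2]; exact one_mem _), hU.card,
      c16])).dvd hx xE
  have hX : ∀ X, U ⊔ zpowers b ≤ X → x ∉ X → ∀ y ∈ X, y ∈ T → y ∈ 𝐂[b] → y ∈ U ⊔ zpowers b :=
    fun X l hX y h1 h2 h3 => (cM ⟨h2, h3⟩).elim id fun ⟨e, he, e'⟩ =>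
      absurd ((mul_mem_cancel_left (l he)).1 (e' ▸ h1)) hX
  obtain ⟨K, c⟩ : ∃ K, Cm b T K := by
    by_cases d : x ∈ U ⊔ zpowers b ⊔ phi T
    · refine ⟨⁅phi T, T⁆, Cm.of_card bT b2 (fun t ht => ?_) ?_⟩
      · obtain ⟨e, he, f, hf, rfl⟩ := (nT.phi.mem_sup' (EM.trans (inf_le_left.trans nT.le))).1 d
        rw [cm_mul] at xa
        rw [← xa, cm_mul', cm_one (cent_le_cent1 (Ea e he) (TC ht)), mul_one, mul_inv_cancel, mul_one]
        exact B9.comm_mem_symm (commutator_mem_commutator (nT.phi.conj_mem (nT.le (EM he).1)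
          (B9.commEl_mem_left hf (nT.phi.norm ha))) ht)
      · rw [c16]
        by_cases d' : ⁅T, T⁆ = ⊥
        · rw [le_bot_iff.1 ((commutator_mono (phi_le T) le_rfl).trans d'.le), card_bot, ← c16,
            one_mul]
          exact card_le_of_le' inf_le_left
        · have h1 := Nat.le_of_dvd Nat.card_pos (B9.mul_card_dvd_of_lt P2 (hT.to_le (der1_le T))
            (comm_phi_lt hT d'))
          have h2 := eight_le hT UZ hU.not_cyclic
            ((by omega : 8 ≤ #|T ⊓ 𝐂[b]|).trans (card_le_of_le' inf_le_left))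
          rw [← card_mul (der1_le T)]
          nlinarith
    · obtain ⟨X, l1, l2, l3, l4⟩ := exists_max hT le_sup_right
        (sup_le (EM.trans inf_le_left) (phi_le T)) d
      have l := le_sup_left.trans l1
      have c := (calT (hT.to_le l2) hU (le_zent (le_sup_left.trans l) (le_cent_symm (l2.trans TC)))
        (l (B9.mem_sup_zpowers_self U b)) hb' b2 (le_antisymm (fun y hy => hX X l l3 y hy.1
          (l2 hy.1) hy.2) (le_inf l (EM.trans inf_le_right)))).1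
      exact ⟨_, bT, b2, fun k => (c.mem k).trans ⟨fun ⟨t, ht, e⟩ => ⟨t, l2 ht, e⟩,
        fun ⟨t, ht, e⟩ => (l4 t ht).elim (fun d => ⟨t, d, e⟩) fun ⟨s, hs, e'⟩ =>
          ⟨s, hs, by rw [e, e', cm_mul_cent hx.2]⟩⟩⟩
  have cS := fun {s} (hs : s ∈ S) => cases_two iT ha aT hs
  have nK : K ⊴ S := ⟨c.le.trans nT.le, fun s hs => (cS hs).elim (c.normal.norm ·)
    fun ⟨t, ht, e⟩ => e ▸ mul_mem (c.normal.norm ht) (c.norm (nT.norm ha) ab)⟩
  have sb : ∀ s ∈ S, ⁅s, b⁆ ∈ K := fun s hs => (cS hs).elim c.cm fun ⟨t, ht, e⟩ => by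
    rw [e, cm_mul_cent ab]; exact c.cm ht
  have om : ∀ k ∈ K, k * k = 1 → k ∈ U := fun k hk k2 => (cM (c.omega hk k2)).elim
    (fun d => (mE d).elim id fun ⟨u, hu, e⟩ => absurd (e ▸ hk) (c.not_mem (nT.le.trans nU.norm) hb' hu))
    fun ⟨e, he, e'⟩ => by
      have := B9.commEl_mem_left hk (nK.norm ha)
      rw [e', cm_mul, xa, conj_cent' (EM he).2, mem_cent.1 hbU _ (Ea e he) |>.symm] at this
      exact absurd this (c.not_mem (nT.le.trans nU.norm) hb' (Ea e he))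
  have nb : ∀ H ≤ S, Bad H → b ∉ H := fun H hH hB h => by
    have pH := hS.to_le hH
    have h1 := hB.le32 pH
    have h2 := relIndex_phi_le pH h
    have h3 := card_inf_le nT.le iT 𝐂[b]
    have h4 := eq_of_le_of_card_le (inf_le_inf_right 𝐂[b] hH) (by omega)
    have h5 := card_le_of_le' (inf_le_inf_right 𝐂[b] hH)
    refine (Cm.of_card h b2 (fun t ht => B9.der1_le_phi P2 pH (commutator_mem_commutator ht h)) (by
      rw [← card_mul (phi_le H)]; exact Nat.mul_le_mul_left _ (by omega))).not_mem (U := ⊥)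
      (NormalIn.bot H).norm (fun e => hb' ((mem_bot.1 e) ▸ one_mem _)) (one_mem _) ?_
    rw [one_mul, ← xa]
    exact B9.der1_le_phi P2 pH (commutator_mem_commutator (h4.ge ⟨nT.le xT, hx.2⟩).1
      (h4.ge ⟨ha, ab⟩).1)
  have pH := hS.to_le hH
  have pK := hS.to_le nK.le
  have nH := hH.trans nK.norm
  have bR : b ∉ K ⊔ H := fun e => by
    obtain ⟨k, hk, h, hh, e⟩ := (nK.mem_sup hH).1 e
    obtain ⟨t, ht, e'⟩ := c.conj (inv_mem hk)
    refine nb _ (conj_le_of_mem (inv_mem (nT.le ht)) hH) (hB.conj t⁻¹) (mem_conj.2 ?_)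
    rwa [inv_inv, ← e', ← e, inv_mul_cancel_left]
  have RS := sup_le nK.le hH
  have nb : b ∈ 𝐍(K ⊔ H) := B9.mem_norm_of_comm fun r hr =>
    mem_sup_left (B9.comm_mem_symm (sb r (RS hr)))
  have i2 := B9.relIndex_sup_zpowers P2 nb bR (by rw [pow_two, b2]; exact one_mem _)
  have RS' : K ⊔ H ⊔ zpowers b < S := lt_of_le_of_ne (sup_le RS (zpowers_le.2 hb)) fun e =>
    bR ((eq_of_le_sup_phi RS (e.ge.trans (sup_le_sup_left (zpowers_le.2 (xa ▸ B9.der1_le_phi P2 hS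
      (commutator_mem_commutator (nT.le xT) ha))) _))).ge hb)
  have i16 : K.relIndex T = 16 := B9.relIndex_eq_of_card_eq c.le (by rw [← c.card, c16])
  have e1 := relIndex_mul_relIndex _ _ _ c.le nT.le
  have e2 := relIndex_mul_relIndex _ _ _ (le_sup_left : K ≤ K ⊔ H)
    (le_sup_left : _ ≤ K ⊔ H ⊔ zpowers b)
  have e3 := relIndex_lt hS (le_sup_left.trans le_sup_left) RS' (n := 16)
    (by have := Nat.le_of_dvd two_pos iT; nlinarith)
  rw [relIndex_sup_of_norm nH, i2] at e2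
  obtain ⟨j8, jp, UJ⟩ := cnt pH inf_le_left (comm_of_le c.comm inf_le_right) (omega_le_iff.2
    fun x hx x2 => om x hx.2 (by rwa [← pow_two])) hU.card (by rw [inf_relIndex_left]; omega) hB
  rw [inf_relIndex_left] at j8
  have pk : phi H ≤ phi K := jp ▸ phi_mono P2 pK inf_le_right
  have dH := (B9.der1_le_phi P2 pH).trans pk
  have UK := UJ.trans inf_le_right
  have l : U ⊔ zpowers b ≤ K ⊔ H ⊔ zpowers b := sup_le_sup_right (UK.trans le_sup_left) _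
  have bR' := B9.mem_sup_zpowers_self (K ⊔ H) b
  by_cases d : x ∈ K ⊔ H ⊔ zpowers b
  swap
  · exact thmA (hS.to_le RS'.le) hU (nU.of_le (le_sup_left.trans l) RS'.le) bR' hbU hb' b2
      (le_antisymm (fun y hy => hX _ l d y hy.1.1 (CT y (RS'.le hy.1.1) hy.1.2) hy.2) (le_inf
        (le_inf l (EM.trans (inf_le_left.trans TC))) (EM.trans inf_le_right)))
      (le_sup_right.trans le_sup_left) hB
  have dR := B9.comm_sup_zpowers_le (RS.trans nK.norm) (nK.norm hb) (der_sup nH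
    (dH.trans (phi_le K))) fun r hr => B9.comm_mem_symm (sb r (RS hr))
  have cR := fun {y} => cases_two (y := y) i2.dvd bR' bR
  by_cases HT : H ≤ T
  · have eT : K ⊔ H ⊔ zpowers b = T := eq_of_le_of_card_le (sup_le (sup_le c.le HT) (zpowers_le.2 bT))
      (by rw [← card_mul c.le, ← card_mul (le_sup_left.trans le_sup_left : K ≤ _), ← e2, j8, i16])
    rw [eT] at dR cR
    have sR := sq_sup nH fun x hx => phi_le K (pk (sq_mem_phi pH hx))
    have tr := c.triv hT dR (fun y hy => (cR hy).elim (sR y) fun ⟨s, hs, e⟩ => by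
      have := mul_mem (sR s hs) (sb _ (inv_mem (RS hs)))
      rw [commutatorElement_def, c.binv] at this
      convert this using 1; rw [e]; group) hU om
    have dP : ⁅K ⊔ H, K ⊔ H⁆ ≤ phi K := by
      rw [der1_sup _ _ nH]
      exact sup_le (sup_le ((commutator_mono le_rfl c.le).trans tr)
        ((commutator_mono le_rfl HT).trans tr)) dH
    obtain ⟨p, hp, pb, pa⟩ : ∃ p ∈ K ⊔ H, p ∈ 𝐂[b] ∧ ⁅p, a⁆ = b := (cR xT).elim
      (fun e => ⟨x, e, hx.2, xa⟩) fun ⟨p, hp, e⟩ => ⟨p, hp, (mul_mem_cancel_right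
        (self_mem_cent1 b)).1 (e ▸ hx.2), by rw [← xa, e, cm_mul_cent ba]⟩
    have f : ∀ t ∈ T, ⁅t, p⁆ ∈ phi K := fun t ht => (cR ht).elim
      (fun e => B9.comm_mem_of_le dP e hp) fun ⟨s, hs, e⟩ => by
        rw [e, cm_mul_cent (mem_cent1_comm.1 pb)]; exact B9.comm_mem_of_le dP hs hp
    refine (phi_lt fun e => hU.not_cyclic (cyclic_of_le cyclic_bot (UK.trans e.le))).not_ge
      fun k hk => ?_
    obtain ⟨t, ht, rfl⟩ := (c.mem k).1 hk
    have := nK.phi.conj_mem ha (f _ (nT.conj_mem' ha ht))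
    rw [conjugate_commutatorElement, show a * (a⁻¹ * t * a) * a⁻¹ = t by group,
      show a * p * a⁻¹ = b * p by rw [← c.binv, ← pa]; group, cm_mul'] at this
    exact (mul_mem_cancel_right (nK.phi.conj_mem hb (f t ht))).1 this
  obtain ⟨h, hh, hh'⟩ := SetLike.not_le_iff_exists.1 HT
  obtain ⟨t, ht, e⟩ := (cS (hH hh)).resolve_left hh'
  have KU : K ≤ U := by
    by_contra c'
    obtain ⟨k, hk, k1, -, k2⟩ := B9.step P2 hS nK.le nU.norm nK.norm c'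
    have h1 := B9.comm_mem_of_le dR d (mem_sup_left (mem_sup_right hh))
    rw [e, cm_mul', xa, show t * b * t⁻¹ = ⁅t, b⁆ * b by group] at h1
    have h2 := conj_cent'' (B9.der1_le_cent_zent2 T (commutator_mem_commutator xT ht))
      (B9.mem_zent2.2 ⟨c.le hk, fun y hy => UZ (B9.comm_mem_symm (k2 y (nT.le hy)))⟩)
    have h3 := conj_cent'' (le_cent_self c.comm h1) hk
    rw [show ⁅x, t⁆ * (⁅t, b⁆ * b) * k * (⁅x, t⁆ * (⁅t, b⁆ * b))⁻¹ =
      ⁅x, t⁆ * (⁅t, b⁆ * (b * k * b⁻¹) * ⁅t, b⁆⁻¹) * ⁅x, t⁆⁻¹ by group, c.inv hk,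
      conj_cent'' (le_cent_self c.comm (c.cm ht)) (inv_mem hk), ← conj_inv, h2] at h3
    exact k1 (om k hk (by nth_rw 1 [← h3]; group))
  have := (phi_eq_bot_iff P2 pH).1 (le_bot_iff.1 (pk.trans ((phi_mono P2 (hS.to_le nU.le) KU).trans
    ((phi_eq_bot_iff P2 (hS.to_le nU.le)).2 hU.ab).le)))
  exact hh' (CT h (hH hh) (cent_anti (UJ.trans inf_le_left) (le_cent_self this.1 hh)))

end Cfsg.Agent.H2.Har
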