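import Cfsg.Agent.H2.Harada2

/-! Harada's theorem, conclusion. -/

set_option autoImplicit false
set_option linter.unusedSectionVars false

namespace Cfsg.Agent.H2.Har

open Subgroup Cfsg.Agent.H1 Cfsg.Agent.L Cfsg.Agent.FT
open scoped Pointwise commutatorElement

variable {G : Type*} [Group G] [Finite G] {A B H J K L M N R S T U X : Subgroup G}
  {a b c g h k s t u x y z : G}

theorem eq_of_mem_zpowers (z2 : z * z = 1) (hy : y ∈ zpowers z) (h1 : y ≠ 1) : y = z := by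
  by_cases z1 : z = 1
  · subst z1; simpa using hy
  refine (mem_sup_inv (A := ⊥) (x := z) (y := y) (by rw [norm_bot]; trivial) (by simpa using z1) (by simpa using z2)
    (by simpa using hy)).elim (fun e => absurd (mem_bot.1 e) h1) fun ⟨s, hs, e⟩ => ?_
  rw [e, mem_bot.1 hs, one_mul]

theorem ab_sq (hA : IsElementaryAbelian 2 A) (ha : a ∈ A) : a * a = 1 :=
  (pow_two a).symm.trans (hA.2 a ha)

theorem thmA' (hS : IsPGroup 2 S) (hA : IsElementaryAbelian 2 A) (c8 : #|A| = 8)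
    (hC : S ⊓ 𝐂(A) = A) (hU : Four U) (nU : U ⊴ S) (UA : U ≤ A) (hH : H ≤ S) : ¬ Bad H := by
  have i := B9.relIndex_eq_of_card_eq (n := 2) UA (by rw [c8, hU.card])
  obtain ⟨a, ha, ha'⟩ := B9.exists_not_mem_of_relIndex (A := U) (S := A) (by omega)
  have e := B9.sup_zpowers_eq P2 UA i ha ha'
  exact thmA hS hU nU (hC.ge ha).1 (cent_anti UA (hC.ge ha).2) ha' (ab_sq hA ha)
    (by rw [inf_assoc, ← cent_zpowers, ← cent_sup, e, hC]) hH

theorem thmC (hS : IsPGroup 2 S) (hA : IsElementaryAbelian 2 A) (c8 : #|A| = 8)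
    (hC : S ⊓ 𝐂(A) = A) (hU : Four U) (nU : U ⊴ S) (hH : H ≤ S) : ¬ Bad H := by
  by_cases UA : U ≤ A
  · exact thmA' hS hA c8 hC hU nU UA hH
  obtain ⟨z, zU, zS, z1, iz, iT, hz⟩ := exists_z hS hU nU
  have AS : A ≤ S := hC.ge.trans inf_le_left
  have AC : A ≤ 𝐂(A) := hC.ge.trans inf_le_right
  have z2 := hU.sq zU
  have zA : z ∈ A := hC.le ⟨nU.le zU, cent_anti AS zS⟩
  obtain ⟨a, ha, aU⟩ := SetLike.not_le_iff_exists.1 fun e : A ≤ 𝐂(U) =>
    UA ((le_inf nU.le (le_cent_symm e)).trans hC.le)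
  have two : ∀ X ≤ S, a ∈ X → (𝐂(U)).relIndex X = 2 := fun X hX h =>
    ((Nat.dvd_prime P2).1 ((B9.relIndex_dvd_of_le_of_norm' hX (le_norm_cent nU.norm)).trans
      iT)).resolve_left fun e => aU (relIndex_eq_one.1 e h)
  have hW : Four (A ⊓ 𝐂(U)) := ⟨abelem_of_le hA inf_le_left, by
    have := card_inf_mul A 𝐂(U); rw [two A AS ha] at this; omega⟩
  have eA := B9.sup_zpowers_eq P2 inf_le_left ((inf_relIndex_left A _).trans (two A AS ha)) ha
    fun c => aU c.2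
  have mW : ∀ w, w ∈ A ⊓ 𝐂(U) ↔ w ∈ A ∧ w ∈ 𝐂(U) := fun _ => Iff.rfl
  generalize A ⊓ 𝐂(U) = W at *
  have zW : zpowers z ≤ W := zpowers_le.2 ((mW z).2 ⟨zA, le_cent_self hU.ab.1 zU⟩)
  have iW := B9.relIndex_eq_of_card_eq (n := 2) zW
    (by rw [B9.card_zpowers_prime P2 z1 (by rwa [pow_two]), hW.card])
  obtain ⟨b, bW, bz⟩ := B9.exists_not_mem_of_relIndex (A := zpowers z) (S := W) (by omega)
  have eW := B9.sup_zpowers_eq P2 zW iW bW bz
  obtain ⟨bA, bU⟩ := (mW b).1 bW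
  have WA : W ≤ A := fun w hw => ((mW w).1 hw).1
  have bU' : b ∉ U := fun c => UA ((B9.sup_zpowers_eq P2 (zpowers_le.2 zU) iz c bz).ge.trans
    (eW.le.trans WA))
  obtain ⟨u, hu, ua⟩ : ∃ u ∈ U, ⁅u, a⁆ = z := by
    obtain ⟨u, hu, c⟩ : ∃ u ∈ U, u * a ≠ a * u := by simpa [mem_cent] using aU
    exact ⟨u, hu, eq_of_mem_zpowers z2 (hz a (AS ha) u hu) fun e => c (B9.commEl_eq_one_iff.1 e)⟩
  have eC : S ⊓ 𝐂[b] = S ⊓ 𝐂(W) := by
    rw [← eW, cent_sup, cent_zpowers, cent_zpowers, ← inf_assoc, inf_eq_left.2 (le_cent1_iff.2 zS)]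
  have AC' : A ≤ S ⊓ 𝐂[b] := le_inf AS (AC.trans (cent_le_cent1 bA))
  have Ca : S ⊓ 𝐂[b] ⊓ 𝐂[a] = A := by rw [eC, inf_assoc, ← cent_zpowers, ← cent_sup, eA, hC]
  have WZ : W ≤ zent (S ⊓ 𝐂[b]) := le_zent (WA.trans AC') (le_cent_symm (eC.le.trans inf_le_right))
  have pC := hS.to_le (inf_le_left : S ⊓ 𝐂[b] ≤ S)
  obtain ⟨c, i8, -, om⟩ := calT pC hW WZ (AC' ha) (fun c => aU ((mW a).1 c).2) (ab_sq hA ha)
    (Ca.trans eA.symm)
  by_cases SC : S ≤ S ⊓ 𝐂[b]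
  · exact thmA' hS hA c8 hC hW ⟨WA.trans AS, SC.trans (NormalIn.of_le_zent WZ).norm⟩ WA hH
  obtain ⟨g, hg, gC⟩ := SetLike.exists_of_lt (lt_inf_norm_of_nil (pgroup_nil P2 hS)
    (lt_of_le_of_ne inf_le_left fun e => SC e.ge))
  have ng := norm_le_norm_der1 _ hg.2
  have KT := (der1_mono (inf_le_left : S ⊓ 𝐂[b] ≤ S)).trans ((B9.der1_le_of_relIndex P2 hS
    inf_le_left ((inf_relIndex_left S 𝐂(U)).symm ▸ iT)).trans inf_le_right)
  generalize ⁅S ⊓ 𝐂[b], S ⊓ 𝐂[b]⁆ = K at *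
  have nz : ∀ k ∈ K, k * k ∈ zpowers z → k * k = 1 := fun k hk h => by
    by_contra d
    have uC : u ∈ S ⊓ 𝐂[b] := ⟨nU.le hu, mem_cent1.2 (mem_cent.1 bU u hu)⟩
    have : u⁻¹ * k ∈ W := (mW _).2 ⟨Ca.le ⟨(S ⊓ 𝐂[b]).mul_mem (inv_mem uC) (c.le hk), mem_cent_of_cm
      (by rw [ua, c.sq hk, eq_of_mem_zpowers z2 h d])⟩,
      mul_mem (inv_mem (le_cent_self hU.ab.1 hu)) (KT hk)⟩
    apply d
    calc k * k = (u * u) * (u⁻¹ * (u⁻¹ * k) * k) := by group
      _ = (u * u) * ((u⁻¹ * k) * (u⁻¹ * k)) := by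
        nth_rw 1 [mem_cent.1 (KT hk) _ (inv_mem hu)]; group
      _ = 1 := by rw [hU.sq hu, hW.sq this, one_mul]
  have KW : K ≤ W := by
    by_contra d
    obtain ⟨k, hk, k1, k2, -⟩ := B9.step P2 pC c.le (NormalIn.of_le_zent WZ).norm c.normal.norm d
    rw [pow_two] at k2
    have y1 : k * k ∉ zpowers z := fun e => k1 (om k hk (nz k hk e))
    have hk' := conj_mem_of_mem_normalizer ng hk
    have e : g * k * g⁻¹ * (g * k * g⁻¹) = g * (k * k) * g⁻¹ := by group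
    have y2 : g * (k * k) * g⁻¹ ∈ W := om _ (e ▸ mul_mem hk' hk') (by
      calc _ = g * (k * k * (k * k)) * g⁻¹ := by group
        _ = 1 := by rw [hW.sq k2]; group)
    have y3 : g * (k * k) * g⁻¹ ∉ zpowers z := fun h => y1 (by
      have := nz _ hk' (e ▸ h)
      rw [e, conj_eq_one_iff] at this
      exact this ▸ one_mem _)
    have e2 : k * (g * k * g⁻¹) * (k * (g * k * g⁻¹)) = k * k * (g * (k * k) * g⁻¹) := by
      calc _ = k * (g * k * g⁻¹ * k) * (g * k * g⁻¹) := by group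
        _ = _ := by rw [mul_comm_of_comm c.comm hk' hk]; group
    have e3 := nz _ (mul_mem hk hk') (e2 ▸ mul_mem_two iW.dvd k2 y2 y1 y3)
    rw [e2, ← hW.sq k2, mul_right_inj, mul_inv_eq_iff_eq_mul] at e3
    obtain ⟨s, hs, e4⟩ := (cases_two iW.dvd k2 y1 bW).resolve_left bz
    refine gC ⟨hg.1, mem_cent1_comm.1 (e4 ▸ mul_mem (zpowers_le.2 (cent_le_cent1 hg.1 zS) hs)
      (mem_cent1.2 e3.symm))⟩
  have e1 := card_mul c.le
  have e2 := card_inf_mul (S ⊓ 𝐂[b]) 𝐂(U)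
  rw [two _ inf_le_left (AC' ha), inf_right_comm] at e2
  have e3 := card_le_of_le' KW
  have b2 := ab_sq hA bA
  have EM : U ⊔ zpowers b ≤ S ⊓ 𝐂(U) ⊓ 𝐂[b] := sup_le (le_inf (le_inf nU.le (le_cent_self hU.ab.1))
    (le_cent1_iff.2 bU)) (zpowers_le.2 ⟨⟨AS bA, bU⟩, self_mem_cent1 b⟩)
  rcases EM.eq_or_lt with e | e
  · exact thmA hS hU nU (AS bA) bU bU' b2 e.symm hH
  have e4 := Nat.le_of_dvd Nat.card_pos (B9.mul_card_dvd_of_lt P2
    (hS.to_le (inf_le_left.trans inf_le_left)) e)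
  rw [B9.card_sup_zpowers P2 (nU.norm (AS bA)) bU' (by rw [pow_two, b2]; exact one_mem _),
    hU.card] at e4
  rw [hW.card] at e3
  rw [i8] at e1
  obtain ⟨t, ht, e5⟩ := (c.mem b).1 ((eq_of_le_of_card_le KW (by rw [hW.card]; omega)).ge bW)
  obtain ⟨x, hx, xa⟩ : ∃ x ∈ S ⊓ 𝐂(U) ⊓ 𝐂[b], ⁅x, a⁆ = b :=
    (cases_two (two _ inf_le_left (AC' ha)).dvd (AC' ha) aU ht).elim
      (fun d => ⟨t, ⟨⟨ht.1, d⟩, ht.2⟩, e5.symm⟩) fun ⟨s, hs, d⟩ => by
        have := (mul_mem_cancel_right (AC' ha)).1 (d ▸ ht)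
        exact ⟨s, ⟨⟨this.1, hs⟩, this.2⟩, by rw [e5, d, cm_mul_cent (self_mem_cent1 a)]⟩
  exact thmB hS hU nU (AS ha) aU (AC' ha).2 (AS bA) bU bU' b2 (by omega) hx xa hH

theorem exists_four (hG : IsPGroup 2 G) (hA : IsElementaryAbelian 2 A) (c8 : #|A| = 8) :
    ∃ U : Subgroup G, Four U ∧ U ⊴ ⊤ := by
  have hT : IsPGroup 2 (⊤ : Subgroup G) := hG.to_subgroup ⊤
  have key : ∀ C : Subgroup G, IsCyclic C → ¬ C.index ≤ 2 := fun C hC h => by
    have h1 := card_inf_mul A C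
    have h2 := Nat.le_of_dvd two_pos (B9.card_dvd_of_cyclic_exp (cyclic_of_le hC
      (inf_le_right : A ⊓ C ≤ C)) fun x hx => hA.2 x hx.1)
    have h3 := relIndex_le_of_le_right (H := C) (le_top : A ≤ ⊤) (relIndex_ne_zero' C ⊤)
    rw [relIndex_top_right] at h3
    nlinarith
  have : ¬ ∀ E : Subgroup G, E.Normal → IsMulCommutative E → IsCyclic E := fun h => by
    rcases normal_rank_one hG h with c | ⟨-, a, t, e, h1, h2, -⟩
    · exact key ⊤ inferInstance (by simp)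
    · exact key _ (cyclic_zpowers a) (H4.index_zpowers_eq_two h2 h1).le
  push Not at this
  obtain ⟨E, n, c, d⟩ := this
  obtain ⟨U, nU, l, e⟩ := B9.exists_normal_card P2 hT ((NormalIn.top_iff.2 n).omega 2) (k := 2)
    (relIndex_phi (hG.to_subgroup E) c ▸ B9.sq_dvd_relIndex_phi P2 (hG.to_subgroup E) d)
  exact ⟨U, ⟨abelem_of_le (omega_abelem c 2) l, e⟩, nU⟩

theorem sectional (h : ∀ H : Subgroup G, IsPGroup 2 H → ¬ Bad H) : SectionalPRankLE 2 4 G := by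
  intro X N _ A hc he
  let f : A.comap (QuotientGroup.mk' N) →* A := (QuotientGroup.mk' N).subgroupComap A
  have hf : Function.Surjective f := (QuotientGroup.mk' N).subgroupComap_surjective_of_surjective A
    (QuotientGroup.mk'_surjective N)
  have pA : IsPGroup 2 A := fun a => ⟨1, Subtype.ext (by simpa using he a a.2)⟩
  obtain ⟨P⟩ : Nonempty (Sylow 2 (A.comap (QuotientGroup.mk' N))) := inferInstance
  let i := X.subtype.comp (A.comap (QuotientGroup.mk' N)).subtype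
  have hi : Function.Injective i := X.subtype_injective.comp (subtype_injective _)
  let e := (P : Subgroup _).equivMapOfInjective i hi
  let g := (f.comp (P : Subgroup _).subtype).comp e.symm.toMonoidHom
  have hg : g.range = ⊤ := by
    rw [MonoidHom.range_comp, MonoidHom.range_eq_top.2 e.symm.surjective, ← MonoidHom.range_eq_map,
      MonoidHom.range_comp, range_subtype, sylow_map_eq_top hf pA]
  have h1 := not_lt.1 (h _ (P.isPGroup'.map i))
  rw [relIndex, phi_subgroupOf] at h1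
  have h2 := index_dvd_of_le (frattini_le_of_elementary P2 (N := g.ker) (by
    rw [commutator_def, commutator_le]
    intro x _ y _
    rw [MonoidHom.mem_ker, map_commutatorElement, commutatorElement_eq_one_iff_mul_comm]
    exact hc.is_comm.comm _ _) fun x => by
      rw [MonoidHom.mem_ker, map_pow]; exact Subtype.ext (he _ (g x).2))
  rw [index_ker, hg, card_top] at h2
  exact (Nat.le_of_dvd (Nat.pos_of_ne_zero index_ne_zero_of_finite) h2).trans h1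

theorem harada (hG : IsPGroup 2 G) (hA : IsElementaryAbelian 2 A) (c8 : #|A| = 8)
    (hC : 𝐂(A) = A) : SectionalPRankLE 2 4 G := by
  obtain ⟨U, hU, nU⟩ := exists_four hG hA c8
  exact sectional fun H _ => thmC (hG.to_subgroup ⊤) hA c8 (by rw [top_inf_eq, hC]) hU nU le_top

end Cfsg.Agent.H2.Har
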