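import Cfsg.Agent.H2.Harada3

/-! Companions of Harada's theorem. -/

set_option autoImplicit false
set_option linter.unusedSectionVars false

namespace Cfsg.Agent.H2.Har

open Subgroup Cfsg.Agent.H1 Cfsg.Agent.L Cfsg.Agent.FT
open scoped Pointwise commutatorElement

variable {G : Type*} [Group G] [Finite G] {A B C D H J K L M N Q R S T U X Y : Subgroup G}
  {a b c g h k s t u x y z e₁ e₂ f₁ f₂ : G}

theorem card_mul_le (hX : X ≤ T) (hY : Y ≤ T) : #|X| * #|Y| ≤ #|T| * #|X ⊓ Y| := by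
  rw [← card_inf_mul X Y, ← card_mul hY]
  nlinarith [relIndex_le_of_le_right (H := Y) hX (relIndex_ne_zero' Y T),
    Nat.zero_le (#|X ⊓ Y| * #|Y|)]

theorem Bad.card (h : Bad H) (hH : IsPGroup 2 H) : 32 * #|phi H| ≤ #|H| := by
  rw [← card_mul (phi_le H), mul_comm]; exact Nat.mul_le_mul_left _ (h.le32 hH)

theorem thmD (hS : IsPGroup 2 S) (hT : IsElementaryAbelian 2 T) (c16 : #|T| = 16) (hB : Four B)
    (BT : B ≤ T) (hC : ∀ b ∈ B, b ≠ 1 → S ⊓ 𝐂[b] = T) (TS : T ≤ S) (hH : H ≤ S) : ¬ Bad H :=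
  fun hb => by
  have pH := hS.to_le hH
  have h32 := hb.card pH
  have hp : 0 < #|phi H| := Nat.card_pos
  have small : ∀ X ≤ T, X ⊓ B = ⊥ → #|X| ≤ 4 := fun X hX e => by
    have := card_mul_le hX BT
    rw [e, card_bot, c16, hB.card] at this; omega
  have f1 : ∀ g ∈ S, #|H ⊓ g ⋆ T| ≤ 4 := fun g hg => by
    rw [← card_conj g⁻¹, conj_inf, inv_conj_conj]
    refine small _ inf_le_right (eq_bot_iff.2 fun b hb' => by_contra fun b1 => ?_)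
    have l := conj_le_of_mem (inv_mem hg) hH
    have h1 := relIndex_phi_le (hS.to_le l) hb'.1.1
    have h2 := card_le_of_le' (inf_le_inf_right 𝐂[b] l)
    have h3 := hb.conj g⁻¹
    rw [hC b hb'.2 b1] at h2
    unfold Bad at h3
    omega
  have nT : T ⊴ S ⊓ 𝐍(T) := ⟨le_inf TS le_normalizer, inf_le_right⟩
  have NS : S ⊓ 𝐍(T) ≤ S := inf_le_left
  have mN : ∀ g ∈ S, g ⋆ T = T → g ∈ S ⊓ 𝐍(T) := fun g a b => ⟨a, conj_eq_self_iff.1 b⟩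
  generalize S ⊓ 𝐍(T) = N at *
  have pN := hS.to_le NS
  have i4 : T.relIndex N ≤ 4 := by
    obtain ⟨V, nV, lV, cV⟩ := B9.exists_normal_card P2 pN nT (k := 2) (by rw [c16]; decide)
    obtain ⟨W, nW, l1, l2, cW⟩ := B9.exists_normal_card_ge P2 pN nV nT lV 1 (by rw [c16, cV]; decide)
    obtain ⟨b, hb, b1⟩ := exists_mem_ne_one (H := W ⊓ B) fun e => by
      have := small W l2 e; omega
    have := B9.relIndex_cent1_le (R := N) (x := b) fun r hr => B9.comm_mem_symm (B9.comm_mem_of_le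
      (B9.comm_le_of_relIndex_dvd P2 pN (pN.to_le nW.le) (nV.of_le l1 nW.le) nV.norm nW.norm
        (B9.relIndex_eq_of_card_eq l1 cW).dvd) hb.1 hr)
    rwa [← inf_relIndex_left, ← inf_eq_left.2 NS, inf_assoc, hC b hb.2 b1, inf_eq_left.2 NS,
      inf_relIndex_left, cV] at this
  have f2 : #|H ⊓ N| ≤ 16 := by
    have h1 := card_inf_mul (H ⊓ N) T
    have h2 := f1 1 (one_mem _)
    have h3 := relIndex_le_of_le_right (H := T) (inf_le_right : H ⊓ N ≤ N) (relIndex_ne_zero' T N)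
    rw [one_conj] at h2
    rw [inf_assoc, inf_eq_right.2 nT.le] at h1
    nlinarith
  rcases NS.eq_or_lt with e | e
  · rw [e, inf_eq_left.2 hH] at f2; omega
  obtain ⟨g, hg, gN⟩ := SetLike.exists_of_lt (lt_inf_norm_of_nil (pgroup_nil P2 hS) e)
  have nT' : g ⋆ T ⊴ N := conj_of_mem_norm hg.2 ▸ nT.conj g
  have hT' := abelem_conj hT g
  have c16' := (card_conj g T).trans c16
  have ne : ¬ g ⋆ T ≤ T := fun c => gN (mN g hg.1 (eq_of_le_of_card_le c (card_conj g T).ge))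
  have cs : ∀ s ∈ g ⋆ T, s ∉ T → #|T ⊓ 𝐂[s]| ≤ 4 := fun s hs s' => small _ inf_le_left
    (eq_bot_iff.2 fun b hb => by_contra fun b1 => s' ((hC b hb.2 b1).le
      ⟨NS (nT'.le hs), mem_cent1_comm.1 hb.1.2⟩))
  have zs : ∀ s ∈ g ⋆ T, T ⊓ g ⋆ T ≤ T ⊓ 𝐂[s] := fun s hs =>
    inf_le_inf_left _ ((le_cent_self hT'.1).trans (cent_le_cent1 hs))
  have eN := card_mul nT.le
  have z4 := card_mul_le nT.le nT'.le
  have z4' : #|T ⊓ g ⋆ T| ≤ 4 := by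
    obtain ⟨s, hs, s'⟩ := SetLike.not_le_iff_exists.1 ne
    exact (card_le_of_le' (zs s hs)).trans (cs s hs s')
  have sp : SetProd T (g ⋆ T) N := SetProd.of_card nT.le nT'.le (by nlinarith)
  have un : ∀ X ≤ N, IsElementaryAbelian 2 X → X ≤ T ∨ X ≤ g ⋆ T := fun X hX a =>
    SubgroupClass.subset_union.1 fun y hy => by
      obtain ⟨t, ht, s, hs, rfl⟩ := (nT.mem_sup nT'.le).1 (sp.sup.ge (hX hy))
      by_cases s' : s ∈ T
      · exact Or.inl (mul_mem ht s')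
      refine Or.inr (mul_mem ((eq_of_le_of_card_le (zs s hs) ((cs s hs s').trans
        (by nlinarith))).ge ⟨ht, mem_cent1.2 ?_⟩).2 hs)
      calc t * s = (t * s)⁻¹ := eq_inv_of_mul_eq_one_left (ab_sq a hy)
        _ = _ := by rw [mul_inv_rev, inv_eq_of_mul_eq_one_left (ab_sq hT ht),
          inv_eq_of_mul_eq_one_left (ab_sq hT' hs)]
  have un' : ∀ f ∈ S, f ⋆ T ≤ N → f ∈ N ∨ g⁻¹ * f ∈ N := fun f hf l =>
    (un _ l (abelem_conj hT f)).imp (fun c => mN f hf (eq_of_le_of_card_le c (card_conj f T).ge))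
      fun c => mN _ (mul_mem (inv_mem hg.1) hf) (by
        rw [mul_conj, eq_of_le_of_card_le c (by rw [card_conj, card_conj]), inv_conj_conj])
  have NN : N ≤ S ⊓ 𝐍(N) := le_inf NS le_normalizer
  have i2 : N.relIndex (S ⊓ 𝐍(N)) ∣ 2 := relIindex_dvd_two_iff'.2 ⟨g⁻¹, inv_mem hg, fun f hf =>
    (un' f hf.1 (conj_le_of_mem_norm hf.2 nT.le)).symm⟩
  rcases (inf_le_left : S ⊓ 𝐍(N) ≤ S).eq_or_lt with e | e
  · rw [e] at i2
    have h1 := card_inf_le NS i2 H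
    rw [inf_eq_right.2 hH, inf_comm] at h1
    have h2 := (phi_eq_bot_iff P2 pH).1 (card_eq_one.1 (by omega))
    rcases un _ inf_le_right (abelem_of_le h2 (inf_le_left : H ⊓ N ≤ H)) with c | c
    · have := (card_le_of_le' (le_inf inf_le_left c)).trans (one_conj T ▸ f1 1 (one_mem _)); omega
    · have := (card_le_of_le' (le_inf inf_le_left c)).trans (f1 g hg.1); omega
  obtain ⟨f, hf, fN⟩ := SetLike.exists_of_lt (lt_inf_norm_of_nil (pgroup_nil P2 hS) e)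
  have l := conj_le_of_mem_norm hf.2 (nT.le.trans NN)
  obtain ⟨y, hy, yN⟩ := SetLike.not_le_iff_exists.1 fun c : f ⋆ T ≤ N => fN
    ((un' f hf.1 c).elim (NN ·) fun c => (mul_mem_cancel_left (inv_mem hg)).1 (NN c))
  have hX := abelem_conj hT f
  have e1 : y ⋆ T = g ⋆ T := by
    have := (un' y (l hy).1 (conj_le_of_mem_norm (l hy).2 nT.le)).resolve_left yN
    conv_rhs => rw [← conj_of_mem_norm (nT.norm this), ← mul_conj, mul_inv_cancel_left]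
  have e2 : y ⋆ g ⋆ T = T := by rw [← e1, ← mul_conj, ab_sq hX hy, one_conj]
  have e3 : y ⋆ (N ⊓ f ⋆ T) = N ⊓ f ⋆ T := conj_of_mem_norm (cent_le_norm _ (cent_anti inf_le_right
    (le_cent_self hX.1 hy)))
  have h1 := card_inf_le NN i2 (f ⋆ T)
  rw [inf_eq_right.2 l, card_conj] at h1
  have : N ⊓ f ⋆ T ≤ T ⊓ g ⋆ T := (un _ inf_le_left (abelem_of_le hX inf_le_right)).elim
    (fun c => le_inf c (e3.ge.trans ((conj_mono y c).trans e1.le))) fun c =>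
      le_inf (e3.ge.trans ((conj_mono y c).trans e2.le)) c
  have := card_le_of_le' this
  omega

theorem thmE (hS : IsPGroup 2 S) (hB : Four B) (hd : DProd D B T) (CD : C ≤ D) (hc : IsCyclic C)
    (iC : C.relIndex D ∣ 2) (h4 : IsMulCommutative D → #|D| = 4)
    (hC : ∀ b ∈ B, b ≠ 1 → S ⊓ 𝐂[b] = T) (TS : T ≤ S) (hH : H ≤ S) : ¬ Bad H := by
  have BZ : B ≤ zent T := le_zent hd.right_le (le_cent_symm (hd.sup.ge.trans (sup_le
    (le_cent_symm hd.cent) (le_cent_self hB.ab.1))))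
  have CB : B ≤ 𝐂(C) := hd.cent.trans (cent_anti CD)
  rcases TS.eq_or_lt with rfl | e
  · intro hb
    have pH := hS.to_le hH
    have d' : DProd C B (C ⊔ B) := ⟨CB, le_bot_iff.1 (hd.disj ▸ inf_le_inf_right _ CD), rfl⟩
    have cm := comm_of_le (comm_sup (comm_of_cyclic hc) hB.ab.1 CB) (inf_le_right : H ⊓ _ ≤ _)
    have h1 := relIndex_mul_relIndex _ _ _ (phi_mono P2 pH (inf_le_left : H ⊓ (C ⊔ B) ≤ H)) (phi_le H)
    rw [← relIndex_mul_relIndex _ _ _ (phi_le _) inf_le_left, relIndex_phi (pH.to_le inf_le_left) cm,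
      inf_relIndex_left] at h1
    have h2 : (C ⊔ B).relIndex H ≤ 2 := (relIndex_le_of_le_right hH (relIndex_ne_zero' _ _)).trans
      (Nat.le_of_dvd two_pos (B9.relIndex_dvd_of_card_dvd (sup_le (CD.trans hd.left_le) hd.right_le)
        (by rw [hd.card, d'.card, ← card_mul CD, mul_right_comm]; exact mul_dvd_mul_left _ iC)))
    have h3 : #|omegaOne 2 (H ⊓ (C ⊔ B))| ≤ 8 := by
      have : omegaOne 2 (H ⊓ (C ⊔ B)) ≤ omegaOne 2 C ⊔ B := omega_le_iff.2 fun y hy y2 => by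
        obtain ⟨c, hc, b, hb, rfl⟩ := d'.mem_iff.1 hy.2
        rw [(show Commute c b from mem_cent.1 (CB hb) c hc).mul_pow, hB.ab.2 b hb, mul_one] at y2
        exact mul_mem (mem_sup_left (mem_omega hc y2)) (mem_sup_right hb)
      have h5 := Nat.le_of_dvd (Nat.mul_pos Nat.card_pos Nat.card_pos) (card_sup_dvd
        ((le_cent_symm (CB.trans (cent_anti (omega_le 2 C)))).trans (cent_le_norm B)))
      have h6 := Nat.le_of_dvd two_pos (B9.card_omega_cyclic_dvd (p := 2) hc)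
      have h7 := card_le_of_le' this
      rw [hB.card] at h5
      omega
    have h4 := Nat.pos_of_ne_zero (relIndex_ne_zero' (phi (H ⊓ (C ⊔ B))) (phi H))
    unfold Bad at hb
    nlinarith
  obtain ⟨s₀, hs₀, sT₀⟩ := SetLike.exists_of_lt (lt_inf_norm_of_nil (pgroup_nil P2 hS) e)
  obtain ⟨k, sT, s2⟩ := B9.exists_pow_notMem_pow_mem (B9.pgroup_pow_eq_one hS hs₀.1) sT₀
  have hs := pow_mem hs₀ (2 ^ k)
  generalize s₀ ^ 2 ^ k = s at *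
  have BZ' : s ⋆ B ≤ zent T := conj_le_of_mem_norm (norm_le_norm_zent T hs.2) BZ
  have dj : B ⊓ s ⋆ B = ⊥ := by
    by_contra d
    obtain ⟨b, hb, b1⟩ := exists_mem_ne_one (inf_cent_ne_bot_of_pgroup P2 (hS.to_le (inf_le_left.trans
      (hd.right_le.trans TS))) (hS.to_le (zpowers_le.2 hs.1)) (zpowers_le.2 (conj_eq_self_iff.1 (by
        rw [conj_inf, ← mul_conj, ← pow_two, hd.normal_right.conj_eq s2, inf_comm]))) d)
    exact sT ((hC b hb.1.1 b1).le ⟨hs.1, mem_cent1_comm.1 (cent_zpowers s ▸ hb.2)⟩)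
  have hV := abelem_sup hB.ab (abelem_conj hB.ab s) ((BZ'.trans (zent_le_cent T)).trans
    (cent_anti hd.right_le))
  have VZ := sup_le BZ BZ'
  have cV : #|B ⊔ s ⋆ B| = 16 := by
    rw [DProd.card ⟨(BZ'.trans (zent_le_cent T)).trans (cent_anti hd.right_le), dj, rfl⟩, card_conj,
      hB.card]
  have e1 := (hd.inf_left (le_sup_left : B ≤ B ⊔ s ⋆ B)).card
  rw [inf_eq_right.2 (VZ.trans (zent_le T)), cV, hB.card] at e1
  obtain ⟨v, hv, vC⟩ := SetLike.not_le_iff_exists.1 fun c : D ⊓ (B ⊔ s ⋆ B) ≤ C =>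
    (Four.mk (abelem_of_le hV inf_le_right) (by omega)).not_cyclic (cyclic_of_le hc c)
  have := h4 (B9.sup_zpowers_eq P2 CD (((Nat.dvd_prime P2).1 iC).resolve_left fun e =>
    vC (relIndex_eq_one.1 e hv.1)) hv.1 vC ▸ B9.comm_of_sup_zpowers (comm_of_cyclic hc)
      (cent_anti (CD.trans hd.left_le) (VZ hv.2).2))
  have c16 : #|T| = 16 := by rw [hd.card, this, hB.card]
  exact thmD hS (eq_of_le_of_card_le (VZ.trans (zent_le T)) (by omega) ▸ hV) c16 hB hd.right_le hC TS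
    hH

/-- an extraspecial group of order `32` and `+` type with a hyperbolic basis -/
structure Ex (Q : Subgroup G) (z e₁ e₂ f₁ f₂ : G) : Prop where
  card : #|Q| = 32
  hz : z ∈ Q
  z1 : z ≠ 1
  z2 : z * z = 1
  zc : Q ≤ 𝐂[z]
  der : ⁅Q, Q⁆ ≤ zpowers z
  m : e₁ ∈ Q ∧ e₂ ∈ Q ∧ f₁ ∈ Q ∧ f₂ ∈ Q
  sq : e₁ * e₁ = 1 ∧ e₂ * e₂ = 1 ∧ f₁ * f₁ = 1 ∧ f₂ * f₂ = 1
  c : e₂ ∈ 𝐂[e₁] ∧ f₂ ∈ 𝐂[f₁] ∧ e₁ ∈ 𝐂[f₂] ∧ e₂ ∈ 𝐂[f₁]
  n : e₁ ∉ 𝐂[f₁] ∧ e₂ ∉ 𝐂[f₂]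

namespace Ex

theorem symm (h : Ex Q z e₁ e₂ f₁ f₂) : Ex Q z f₁ f₂ e₁ e₂ :=
  ⟨h.card, h.hz, h.z1, h.z2, h.zc, h.der, ⟨h.m.2.2.1, h.m.2.2.2, h.m.1, h.m.2.1⟩,
    ⟨h.sq.2.2.1, h.sq.2.2.2, h.sq.1, h.sq.2.1⟩,
    ⟨h.c.2.1, h.c.1, mem_cent1_comm.1 h.c.2.2.2, mem_cent1_comm.1 h.c.2.2.1⟩,
    fun c => h.n.1 (mem_cent1_comm.1 c), fun c => h.n.2 (mem_cent1_comm.1 c)⟩

theorem le (h : Ex Q z e₁ e₂ f₁ f₂) : zpowers z ⊔ zpowers e₁ ⊔ zpowers e₂ ≤ Q :=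
  sup_le (sup_le (zpowers_le.2 h.hz) (zpowers_le.2 h.m.1)) (zpowers_le.2 h.m.2.1)

theorem zc' (h : Ex Q z e₁ e₂ f₁ f₂) (hx : x ∈ Q) : zpowers z ≤ 𝐂[x] :=
  zpowers_le.2 (mem_cent1_comm.1 (h.zc hx))

theorem norm (h : Ex Q z e₁ e₂ f₁ f₂) (h1 : zpowers z ≤ X) (h2 : X ≤ Q) : Q ≤ 𝐍(X) :=
  le_norm_of_der1_le h2 (h.der.trans h1)

theorem facts (h : Ex Q z e₁ e₂ f₁ f₂) :
    IsElementaryAbelian 2 (zpowers z ⊔ zpowers e₁ ⊔ zpowers e₂) ∧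
    #|zpowers z ⊔ zpowers e₁ ⊔ zpowers e₂| = 8 ∧
    ∀ y ∈ zpowers z ⊔ zpowers e₁ ⊔ zpowers e₂, y ∈ 𝐂[f₁] → y ∈ 𝐂[f₂] → y ∈ zpowers z := by
  have l : zpowers z ⊔ zpowers e₁ ≤ 𝐂[f₂] := sup_le (h.zc' h.m.2.2.2) (zpowers_le.2 h.c.2.2.1)
  have n1 := h.norm le_rfl (zpowers_le.2 h.hz) h.m.1
  have n2 := h.norm le_sup_left (le_sup_left.trans h.le) h.m.2.1
  have a1 : e₁ ∉ zpowers z := fun c => h.n.1 (h.zc' h.m.2.2.1 c)
  have a2 : e₂ ∉ zpowers z ⊔ zpowers e₁ := fun c => h.n.2 (l c)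
  refine ⟨B9.abelem_sup_zpowers (B9.abelem_sup_zpowers (abelem_zpowers (by rw [pow_two, h.z2]))
    (cent_zpowers z ▸ h.zc h.m.1) (by rw [pow_two, h.sq.1])) (by
      rw [cent_sup, cent_zpowers, cent_zpowers]; exact ⟨h.zc h.m.2.1, h.c.1⟩)
    (by rw [pow_two, h.sq.2.1]), ?_, fun y hy h1 h2 => ?_⟩
  · rw [B9.card_sup_zpowers P2 n2 a2 (by rw [pow_two, h.sq.2.1]; exact one_mem _),
      B9.card_sup_zpowers P2 n1 a1 (by rw [pow_two, h.sq.1]; exact one_mem _),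
      B9.card_zpowers_prime P2 h.z1 (by rw [pow_two, h.z2])]
  · refine (mem_sup_inv n1 a1 (h.sq.1 ▸ one_mem _) ((mem_sup_inv n2 a2 (h.sq.2.1 ▸ one_mem _)
      hy).elim id fun ⟨s, hs, e⟩ => absurd ((mul_mem_cancel_left (l hs)).1 (e ▸ h2)) h.n.2)).elim id
      fun ⟨s, hs, e⟩ => absurd ((mul_mem_cancel_left (h.zc' h.m.2.2.1 hs)).1 (e ▸ h1)) h.n.1

end Ex

/-- two complementary maximal elementary abelian subgroups -/
structure Ex2 (Q A B : Subgroup G) (z : G) : Prop where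
  z1 : z ≠ 1
  z2 : z * z = 1
  der : ⁅Q, Q⁆ ≤ zpowers z
  hA : IsElementaryAbelian 2 A
  hB : IsElementaryAbelian 2 B
  cA : #|A| = 8
  cB : #|B| = 8
  zA : zpowers z ≤ A
  zB : zpowers z ≤ B
  sup : A ⊔ B = Q
  iA : A ⊓ 𝐂(B) ≤ zpowers z
  iB : B ⊓ 𝐂(A) ≤ zpowers z

theorem Ex.ex2 (h : Ex Q z e₁ e₂ f₁ f₂) : ∃ A B, Ex2 Q A B z := by
  obtain ⟨a1, a2, a3⟩ := h.facts
  obtain ⟨b1, b2, b3⟩ := h.symm.facts
  have m1 : ∀ x y w : G, y ∈ zpowers x ⊔ zpowers y ⊔ zpowers w := fun x y w =>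
    mem_sup_left (B9.mem_sup_zpowers_self _ y)
  have iA : zpowers z ⊔ zpowers e₁ ⊔ zpowers e₂ ⊓ 𝐂(zpowers z ⊔ zpowers f₁ ⊔ zpowers f₂) ≤ _ := le_rfl
  have i1 := fun y (hy : y ∈ (zpowers z ⊔ zpowers e₁ ⊔ zpowers e₂) ⊓
    𝐂(zpowers z ⊔ zpowers f₁ ⊔ zpowers f₂)) => a3 y hy.1 (cent_le_cent1 (m1 _ _ _) hy.2)
      (cent_le_cent1 (B9.mem_sup_zpowers_self _ _) hy.2)
  refine ⟨_, _, h.z1, h.z2, h.der, a1, b1, a2, b2, le_sup_left.trans le_sup_left,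
    le_sup_left.trans le_sup_left, (SetProd.of_card h.le h.symm.le ?_).sup, i1, fun y hy =>
      b3 y hy.1 (cent_le_cent1 (m1 _ _ _) hy.2) (cent_le_cent1 (B9.mem_sup_zpowers_self _ _) hy.2)⟩
  have := card_le_of_le' ((inf_le_inf_left _ (le_cent_self b1.1)).trans i1)
  rw [B9.card_zpowers_prime P2 h.z1 (by rw [pow_two, h.z2])] at this
  rw [a2, b2, h.card]; omega

namespace Ex2

theorem symm (h : Ex2 Q A B z) : Ex2 Q B A z :=
  ⟨h.z1, h.z2, h.der, h.hB, h.hA, h.cB, h.cA, h.zB, h.zA, (sup_comm _ _).trans h.sup, h.iB, h.iA⟩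

theorem le (h : Ex2 Q A B z) : A ≤ Q := h.sup ▸ le_sup_left

theorem normal (h : Ex2 Q A B z) : A ⊴ Q := NormalIn.of_der1_le h.le (h.der.trans h.zA)

theorem mem (h : Ex2 Q A B z) (hx : x ∈ Q) : ∃ a ∈ A, ∃ b ∈ B, a * b = x :=
  (h.normal.mem_sup h.symm.le).1 (h.sup.ge hx)

theorem cent (h : Ex2 Q A B z) (hx : x ∈ Q) (hc : x ∈ 𝐂(A)) : x ∈ A := by
  obtain ⟨a, ha, b, hb, rfl⟩ := h.mem hx
  exact mul_mem ha (h.zA (h.iB ⟨hb, (mul_mem_cancel_left (le_cent_self h.hA.1 ha)).1 hc⟩))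

theorem key (h : Ex2 Q A B z) (hC : 𝐂(Q) ≤ Q) (c1 : c ∈ 𝐍(Q)) (c2 : c ∈ 𝐂(A)) (c3 : c ∉ Q)
    (hb : b ∈ B) (b1 : b ∉ zpowers z) (bc : ⁅b, c⁆ ∈ zpowers z) : False := by
  have cz := B9.card_zpowers_prime P2 h.z1 (by rw [pow_two, h.z2])
  have zQ : zpowers z ≤ 𝐂(Q) := le_cent_symm (h.sup.ge.trans (sup_le
    ((le_cent_self h.hA.1).trans (cent_anti h.zA)) ((le_cent_self h.hB.1).trans (cent_anti h.zB))))
  have l : zpowers z ⊔ zpowers b ≤ B := sup_le h.zB (zpowers_le.2 hb)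
  have i := B9.relIndex_eq_of_card_eq (n := 2) l (by
    rw [B9.card_sup_zpowers P2 (cent_le_norm _ (le_cent_symm zQ (h.symm.le hb))) b1
      (by rw [h.hB.2 b hb]; exact one_mem _), cz, h.cB])
  obtain ⟨d, hd, d1⟩ := B9.exists_not_mem_of_relIndex (A := zpowers z ⊔ zpowers b) (S := B) (by omega)
  have eB : 𝐂(B) = 𝐂[z] ⊓ 𝐂[b] ⊓ 𝐂[d] := by
    rw [← B9.sup_zpowers_eq P2 l i hd d1, cent_sup, cent_sup, cent_zpowers, cent_zpowers, cent_zpowers]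
  have dQ := h.symm.le hd
  have dQ' := conj_mem_of_mem_normalizer c1 dQ
  have w : d⁻¹ * (c * d * c⁻¹) ∈ A := h.cent (mul_mem (inv_mem dQ) dQ') (mem_cent.2 fun a ha =>
    (mem_cent1.1 (mem_cent_of_cm (by
      rw [← conj_cent'' c2 (h.zA (B9.comm_mem_of_le h.der dQ (h.le ha))),
        conjugate_commutatorElement, conj_cent'' c2 ha]))).symm)
  have w' : d⁻¹ * (c * d * c⁻¹) ∈ zpowers z := h.iA ⟨w, eB ▸ ⟨⟨cent_zpowers z ▸ le_cent_symm zQ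
    (h.le w), 𝐂[b].mul_mem (inv_mem (cent_le_cent1 hb (le_cent_self h.hB.1 hd))) ?_⟩, ?_⟩⟩
  · have dc : ⁅c, d⁆ ∈ zpowers z := by
      have := conj_cent'' (le_cent_symm zQ dQ) w'
      rw [show ⁅c, d⁆ = d * (d⁻¹ * (c * d * c⁻¹)) * d⁻¹ by group, this]; exact w'
    have nz : ∀ y ∈ A, y ∈ 𝐍(zpowers z) := fun y hy => cent_le_norm _ (le_cent_symm zQ (h.le hy))
    have f : ∀ x ∈ B, ⁅c, x⁆ ∈ zpowers z → (𝐂[x]).relIndex (A ⊔ zpowers c) ≤ 2 := fun x hx e =>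
      cz ▸ B9.relIndex_cent1_le fun r hr => (sup_le (fun y hy => B9.mem_commMod.2 ⟨nz y hy,
        B9.comm_mem_of_le h.der (h.le hy) (h.symm.le hx)⟩) (zpowers_le.2 (B9.mem_commMod.2
          ⟨cent_le_norm _ (cent_anti h.zA c2), e⟩)) hr).2
    have h1 := (relIndex_inf_le (H := 𝐂[b]) (K := 𝐂[d]) (L := A ⊔ zpowers c)).trans
      (Nat.mul_le_mul (f b hb (B9.comm_mem_symm bc)) (f d hd dc))
    have h2 := card_inf_mul (A ⊔ zpowers c) (𝐂[b] ⊓ 𝐂[d])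
    have YC : A ⊔ zpowers c ≤ 𝐂(A) := sup_le (le_cent_self h.hA.1) (zpowers_le.2 c2)
    have h3 : (A ⊔ zpowers c) ⊓ (𝐂[b] ⊓ 𝐂[d]) ≤ zpowers z := fun y hy => by
      have yB : y ∈ 𝐂(B) := eB ▸ ⟨⟨cent_le_cent1 (h.zA (mem_zpowers z)) (YC hy.1), hy.2.1⟩, hy.2.2⟩
      exact h.iA ⟨h.cent (hC (by rw [← h.sup, cent_sup]; exact ⟨YC hy.1, yB⟩)) (YC hy.1), yB⟩
    have h4 := card_le_of_le' h3
    have h5 := card_le_of_le' (le_sup_left : A ≤ A ⊔ zpowers c)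
    have h6 : #|A ⊔ zpowers c| ≠ #|A| := fun e =>
      c3 (h.le ((eq_of_le_of_card_le le_sup_left e.le).ge (B9.mem_sup_zpowers_self A c)))
    have := h.cA
    have : #|A ⊔ zpowers c| ≤ 2 * 4 := h2 ▸ Nat.mul_le_mul (cz ▸ h4) h1
    omega
  · have : c * d * c⁻¹ ∈ 𝐂[c * b * c⁻¹] :=
      conj_cent1 c b ▸ conj_mem_conj c (cent_le_cent1 hb (le_cent_self h.hB.1 hd))
    rw [show c * b * c⁻¹ = ⁅b, c⁆⁻¹ * b by group] at this
    exact mem_cent1_comm.1 ((mul_mem_cancel_left (cent_le_cent1 dQ' (zQ (inv_mem bc)))).1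
      (mem_cent1_comm.1 this))
  · have e1 := ab_sq h.hA w
    have e2 : c * d * c⁻¹ * (c * d * c⁻¹) = 1 := by
      rw [show c * d * c⁻¹ * (c * d * c⁻¹) = c * (d * d) * c⁻¹ by group, ab_sq h.hB hd]; group
    refine 𝐂[d].mul_mem (inv_mem (self_mem_cent1 d)) (mem_cent1.2 ?_)
    rw [inv_eq_of_mul_eq_one_right (ab_sq h.hB hd)] at e1
    calc _ = (d * (c * d * c⁻¹))⁻¹ := by
          rw [mul_inv_rev, inv_eq_of_mul_eq_one_right (ab_sq h.hB hd), inv_eq_of_mul_eq_one_right e2]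
      _ = _ := inv_eq_of_mul_eq_one_right e1

theorem exists_c (hG : IsPGroup 2 G) (h : Ex2 Q A B z) (hA : 𝐂(A) ≠ A) :
    ∃ c ∈ 𝐍(Q), c ∈ 𝐂(A) ∧ c ∉ Q := by
  have n := le_norm_cent h.normal.norm
  obtain ⟨y, hy, yQ⟩ := SetLike.exists_of_lt (lt_inf_norm_of_nil (pgroup_nil P2
    (hG.to_subgroup (𝐂(A) ⊔ Q))) (lt_of_le_of_ne le_sup_right fun e => hA (le_antisymm
      (fun x hx => h.cent (e.ge (mem_sup_left hx)) hx) (le_cent_self h.hA.1))))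
  obtain ⟨c, hc, q, hq, rfl⟩ := ((NormalIn.sup_left n).mem_sup le_sup_right).1 hy.1
  exact ⟨c, (mul_mem_cancel_right (le_normalizer hq)).1 hy.2, hc, fun d => yQ (mul_mem d hq)⟩

theorem sectional (hG : IsPGroup 2 G) (h : Ex2 Q A B z) (hC : 𝐂(Q) ≤ Q) :
    SectionalPRankLE 2 4 G := by
  by_contra d
  obtain ⟨c, c1, c2, c3⟩ := h.exists_c hG fun e => d (harada hG h.hA h.cA e)
  obtain ⟨c', c1', c2', c3'⟩ := h.symm.exists_c hG fun e => d (harada hG h.hB h.cB e)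
  have eZ : 𝐂(Q) = zpowers z := le_antisymm (fun y hy => h.iA ⟨h.cent (hC hy) (cent_anti h.le hy),
    cent_anti h.symm.le hy⟩) (le_cent_symm (h.sup.ge.trans (sup_le ((le_cent_self h.hA.1).trans
      (cent_anti h.zA)) ((le_cent_self h.hB.1).trans (cent_anti h.zB)))))
  have nZ : 𝐍(Q) ≤ 𝐍(zpowers z) := eZ ▸ norm_le_norm_cent Q
  obtain ⟨q, hq, q1, -, q2⟩ := B9.step P2 (hG.to_subgroup 𝐍(Q)) le_normalizer nZ le_rfl fun e => by
    have := card_le_of_le' (h.le.trans e)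
    rw [B9.card_zpowers_prime P2 h.z1 (by rw [pow_two, h.z2]), h.cA] at this; omega
  obtain ⟨a, ha, b, hb, rfl⟩ := h.mem hq
  by_cases b1 : b ∈ zpowers z
  · refine h.symm.key hC c1' c2' c3' ha (fun e => q1 (mul_mem e b1)) ?_
    rw [← cm_mul_cent (mem_cent1_comm.1 (cent_le_cent1 hb c2'))]; exact q2 _ c1'
  · refine h.key hC c1 c2 c3 hb b1 ?_
    have := q2 _ c1
    rw [cm_mul, cm_one (mem_cent1_comm.1 (cent_le_cent1 ha c2)), mul_one] at this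
    exact ((mem_normalizer_iff.1 (nZ (le_normalizer (h.le ha)))) _).2 this

end Ex2

end Cfsg.Agent.H2.Har
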